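import Cfsg.Agent.RootInvolutions.Components

/-!
The members commuting with a member `d` that have no odd product with another such member: they
generate a 2-group, are closed under squares, and contain the twins of their members.
-/

set_option autoImplicit false

namespace CfsgLib.RootInv.Structure52

open Cfsg CfsgLib.RootInv

variable {G : Type*} [Group G] {D : Set G}

/-- The standing hypotheses. -/
structure Ctx (D : Set G) : Prop where
  root : IsRootInvolutionSet D
  one : OneClass D
  closed : ∀ d ∈ D, (sameCommutingSubgroup D d : Set G) = sameCommutingClass D d ∪ {1}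

/-- The twins of `d` with `1`. -/
abbrev twinGroup (D : Set G) (d : G) : Subgroup G := sameCommutingSubgroup D d

/-- The isolated members of the members commuting with `d`. -/
abbrev local2 (D : Set G) (d : G) : Set G := isolated (commutingMembers D d)

/-- Conjugation. -/
abbrev cj (g : G) : G →* G := (MulAut.conj g).toMonoidHom

theorem cj_apply (g x : G) : cj g x = g * x * g⁻¹ := rfl

theorem cj_cj (g h x : G) : cj g (cj h x) = cj (g * h) x := by
  simp only [cj_apply]; group

theorem cj_injective (g : G) : Function.Injective (cj g) := (MulAut.conj g).injective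

theorem conj_eq_mul_sq {a x : G} (hx : x * x = 1) : a * x * a = x * (x * a) ^ 2 := by
  rw [pow_two, show x * (x * a * (x * a)) = (x * x) * (a * x * a) by group, hx, one_mul]

theorem sq_inv_eq {a b : G} (ha : a * a = 1) (hb : b * b = 1) :
    ((a * b) ^ 2)⁻¹ = (b * a) ^ 2 := by
  rw [← inv_pow, mul_inv_rev, inv_eq_of_mul_eq_one_right ha, inv_eq_of_mul_eq_one_right hb]

theorem sq_mem_comm {H : Subgroup G} {a b : G} (ha : a * a = 1) (hb : b * b = 1)
    (h : (a * b) ^ 2 ∈ H) : (b * a) ^ 2 ∈ H := sq_inv_eq ha hb ▸ inv_mem h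

theorem commute_of_sq_eq_one {a b : G} (ha : a * a = 1) (hb : b * b = 1) (h : (a * b) ^ 2 = 1) :
    Commute a b := by
  have h' := inv_eq_of_mul_eq_one_right (pow_two (a * b) ▸ h)
  rw [mul_inv_rev, inv_eq_of_mul_eq_one_right ha, inv_eq_of_mul_eq_one_right hb] at h'
  exact h'.symm

theorem sq_eq_one_of_commute {a b : G} (ha : a * a = 1) (hb : b * b = 1) (h : Commute a b) :
    (a * b) ^ 2 = 1 := by
  rw [h.mul_pow, pow_two, pow_two, ha, hb, one_mul]

theorem mem_commutingMembers {c d : G} : c ∈ commutingMembers D d ↔ c ∈ D ∧ Commute c d :=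
  Iff.rfl

theorem twin_commute_iff {c d e : G} (he : e ∈ sameCommutingClass D d) (hc : c ∈ D) :
    Commute c e ↔ Commute c d :=
  ⟨fun h => ((Set.ext_iff.mp he.2 c).mpr ⟨hc, h.eq⟩).2,
    fun h => ((Set.ext_iff.mp he.2 c).mp ⟨hc, h.eq⟩).2⟩

theorem twinGroup_eq_of_twin {d e : G} (he : e ∈ sameCommutingClass D d) :
    twinGroup D e = twinGroup D d := by
  unfold twinGroup sameCommutingSubgroup sameCommutingClass
  rw [he.2]

theorem local2_eq_of_twin {d e : G} (he : e ∈ sameCommutingClass D d) :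
    local2 D e = local2 D d := by
  unfold local2
  rw [he.2]

section Basic

variable (hC : Ctx D) {d a b c e g w x : G}

include hC

theorem self (hx : x ∈ D) : x * x = 1 := mul_self hC.root hx

theorem mem_twinGroup (hd : d ∈ D) :
    x ∈ twinGroup D d ↔ x ∈ sameCommutingClass D d ∨ x = 1 := by
  rw [← SetLike.mem_coe, hC.closed d hd]
  rfl

theorem twin_of_mem (hd : d ∈ D) (hx : x ∈ twinGroup D d) (h1 : x ≠ 1) :
    x ∈ sameCommutingClass D d :=
  ((mem_twinGroup hC hd).mp hx).resolve_right h1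

theorem self_mem_twinGroup (hd : d ∈ D) : d ∈ twinGroup D d :=
  Subgroup.subset_closure ⟨hd, rfl⟩

theorem commute_twinGroup (hd : d ∈ D) (hx : x ∈ twinGroup D d) (hc : c ∈ D) (h : Commute c d) :
    Commute c x := by
  rcases (mem_twinGroup hC hd).mp hx with hx | rfl
  · exact (twin_commute_iff hx hc).mpr h
  · exact Commute.one_right c

theorem twinGroup_self_mul (hd : d ∈ D) (hx : x ∈ twinGroup D d) : x * x = 1 := by
  rcases (mem_twinGroup hC hd).mp hx with hx | rfl
  · exact self hC hx.1
  · exact one_mul 1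

theorem twinGroup_inv (hd : d ∈ D) (hx : x ∈ twinGroup D d) : x⁻¹ = x :=
  inv_eq_of_mul_eq_one_right (twinGroup_self_mul hC hd hx)

theorem twinGroup_commute (hd : d ∈ D) (hx : x ∈ twinGroup D d) (he : e ∈ twinGroup D d) :
    Commute x e := by
  rcases (mem_twinGroup hC hd).mp hx with hx | rfl
  · exact commute_twinGroup hC hd he hx.1 ((twin_commute_iff hx hd).mpr (Commute.refl d)).symm
  · exact Commute.one_left e

theorem twinGroup_commute_of_commute (hd : d ∈ D) (he : e ∈ D) (h : Commute d e)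
    (hx : x ∈ twinGroup D d) (hw : w ∈ twinGroup D e) : Commute x w := by
  rcases (mem_twinGroup hC hd).mp hx with hx | rfl
  · exact commute_twinGroup hC he hw hx.1 ((twin_commute_iff hx he).mpr h.symm).symm
  · exact Commute.one_left w

theorem cj_twin (he : e ∈ sameCommutingClass D d) (g : G) :
    cj g e ∈ sameCommutingClass D (cj g d) := by
  refine ⟨hC.root.conj_mem e he.1 g, Set.ext fun u => ?_⟩
  have key : ∀ v, Commute u (cj g v) ↔ Commute (cj g⁻¹ u) v := fun v => by
    conv_lhs => rw [show u = cj g (cj g⁻¹ u) by rw [cj_cj, mul_inv_cancel]; simp [cj_apply]]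
    exact ⟨fun h => Commute.of_map (cj_injective g) h, fun h => h.map (cj g)⟩
  have hu : u ∈ D → cj g⁻¹ u ∈ D := fun h => hC.root.conj_mem u h g⁻¹
  exact ⟨fun h => ⟨h.1, ((key e).mpr ((twin_commute_iff he (hu h.1)).mpr ((key d).mp h.2))).eq⟩,
    fun h => ⟨h.1, ((key d).mpr ((twin_commute_iff he (hu h.1)).mp ((key e).mp h.2))).eq⟩⟩

theorem cj_twinGroup (hd : d ∈ D) (he : e ∈ twinGroup D d) (g : G) :
    cj g e ∈ twinGroup D (cj g d) := by
  rcases (mem_twinGroup hC hd).mp he with he | rfl
  · exact Subgroup.subset_closure (cj_twin hC he g)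
  · rw [map_one]; exact one_mem _

/-- The twins of two members in different classes meet trivially. -/
theorem twinGroup_disjoint (hd : d ∈ D) (he : e ∈ D) (hne : e ∉ sameCommutingClass D d)
    (hx : x ∈ twinGroup D d) (hx' : x ∈ twinGroup D e) : x = 1 := by
  by_contra h1
  exact hne ⟨he, (twin_of_mem hC hd hx h1).2.trans (twin_of_mem hC he hx' h1).2.symm⟩

theorem local2_mem (hw : w ∈ local2 D d) : w ∈ D := hw.1.1

theorem local2_commute (hw : w ∈ local2 D d) : Commute w d := hw.1.2

theorem local2_pow_four (hw : w ∈ local2 D d) (hc : c ∈ D) (h : Commute c d) :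
    (c * w) ^ 4 = 1 :=
  (odd_or_pow_four hC.root hc hw.1.1).resolve_left fun h' =>
    (hw.2 c).2 ⟨⟨hc, h.eq⟩, hw.1, h'.1, h'.2⟩

theorem mem_local2 (hw : w ∈ D) (hwd : Commute w d)
    (h : ∀ c ∈ D, Commute c d → (c * w) ^ 4 = 1) : w ∈ local2 D d := by
  refine ⟨⟨hw, hwd.eq⟩, fun c => ⟨fun hadj => ?_, fun hadj => ?_⟩⟩
  · obtain ⟨-, hc, hne, ho⟩ := hadj
    rw [odd_comm hC.root hw hc.1] at ho
    exact hne (eq_of_odd_of_pow_four hC.root hw ho (h c hc.1 hc.2)).symm
  · obtain ⟨hc, -, hne, ho⟩ := hadj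
    exact hne (eq_of_odd_of_pow_four hC.root hw ho (h c hc.1 hc.2))

theorem local2_of_line (hl : Line D w d) : w ∈ local2 D d :=
  mem_local2 hC hl.1 (Line.commute hC.root hl) fun _ hc h =>
    (Line.symm hC.root hl).pow_four_of_commute hC.root hc h

theorem twin_mem_local2 (hd : d ∈ D) (he : e ∈ sameCommutingClass D d) : e ∈ local2 D d :=
  mem_local2 hC he.1 ((twin_commute_iff he hd).mpr (Commute.refl d)).symm fun c hc h => by
    rw [show (4 : ℕ) = 2 * 2 from rfl, pow_mul,
      (commute_iff hC.root hc he.1).mp ((twin_commute_iff he hc).mpr h), one_pow]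

theorem local2_twin [Finite G] (hd : d ∈ D) (hw : w ∈ local2 D d)
    (he : e ∈ sameCommutingClass D w) : e ∈ local2 D d :=
  mem_local2 hC he.1 ((twin_commute_iff he hd).mpr (local2_commute hC hw).symm).symm fun c hc h =>
    Same.not_odd hC.root (same_of_commutingMembers_eq hC.root hC.one hw.1.1 he.1 he.2)
      hw.1.1 he.1 hc (local2_pow_four hC hw hc h)

theorem cj_local2 (hw : w ∈ local2 D d) (g : G) : cj g w ∈ local2 D (cj g d) := by
  refine mem_local2 hC (hC.root.conj_mem w hw.1.1 g) ((local2_commute hC hw).map (cj g))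
    fun c hc h => ?_
  have h' : Commute (cj g⁻¹ c) d := by
    have := h.map (cj g⁻¹)
    rwa [cj_cj, inv_mul_cancel, show cj (1 : G) d = d by simp [cj_apply]] at this
  have h4 := congrArg (cj g) (local2_pow_four hC hw (hC.root.conj_mem c hc g⁻¹) h')
  rwa [map_pow, map_mul, map_one, ← cj_apply, cj_cj, mul_inv_cancel,
    show cj (1 : G) c = c by simp [cj_apply]] at h4

theorem cj_local2_self (hw : w ∈ local2 D d) (hg : Commute g d) : cj g w ∈ local2 D d := by
  have h := cj_local2 hC hw g
  rwa [show cj g d = d by rw [cj_apply, hg.eq, mul_inv_cancel_right]] at h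

end Basic

/-- The group generated by the isolated members. -/
abbrev core2 (D : Set G) (d : G) : Subgroup G := Subgroup.closure (local2 D d)

section Core

variable (hC : Ctx D) {d a b c e g w x n : G}

include hC

theorem core2_commute (hn : n ∈ core2 D d) : Commute n d := by
  induction hn using Subgroup.closure_induction with
  | mem u hu => exact local2_commute hC hu
  | one => exact Commute.one_left d
  | mul p q _ _ hp hq => exact hp.mul_left hq
  | inv p _ hp => exact hp.inv_left

theorem core2_commute_twinGroup (hd : d ∈ D) (he : e ∈ twinGroup D d) (hn : n ∈ core2 D d) :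
    Commute n e := by
  induction hn using Subgroup.closure_induction with
  | mem u hu => exact commute_twinGroup hC hd he hu.1.1 (local2_commute hC hu)
  | one => exact Commute.one_left e
  | mul p q _ _ hp hq => exact hp.mul_left hq
  | inv p _ hp => exact hp.inv_left

theorem twinGroup_le_core2 (hd : d ∈ D) : twinGroup D d ≤ core2 D d :=
  (Subgroup.closure_le _).mpr fun _ he => Subgroup.subset_closure (twin_mem_local2 hC hd he)

theorem cj_core2 (hg : Commute g d) (hn : n ∈ core2 D d) : cj g n ∈ core2 D d := by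
  induction hn using Subgroup.closure_induction with
  | mem u hu => exact Subgroup.subset_closure (cj_local2_self hC hu hg)
  | one => rw [map_one]; exact one_mem _
  | mul p q _ _ hp hq => rw [map_mul]; exact mul_mem hp hq
  | inv p _ hp => rw [map_inv]; exact inv_mem hp

theorem core2_isPGroup [Finite G] : IsPGroup 2 (core2 D d) :=
  isPGroup_closure_of_pairs (fun w hw => hC.root.orderOf_eq w hw.1.1)
    (fun s hs t ht => cj_local2_self hC ht (local2_commute hC hs))
    (fun s hs t ht => local2_pow_four hC ht hs.1.1 (local2_commute hC hs))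

theorem mem_local2_of_core2 [Finite G] (hx : x ∈ D) (hxN : x ∈ core2 D d) : x ∈ local2 D d := by
  refine mem_local2 hC hx (core2_commute hC hxN) fun c hc hcd =>
    (odd_or_pow_four hC.root hc hx).resolve_left fun ⟨hne, ho⟩ => hne ?_
  have hm : c * x * c⁻¹ * x ∈ core2 D d := mul_mem (cj_core2 hC hcd hxN) hxN
  obtain ⟨k, hk⟩ := core2_isPGroup hC ⟨_, hm⟩
  have hk' : (c * x * c⁻¹ * x) ^ 2 ^ k = 1 := congrArg Subtype.val hk
  rw [inv_self hC.root hc, show c * x * c * x = (c * x) ^ 2 by simp only [pow_two, mul_assoc],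
    ← pow_mul, ← pow_succ'] at hk'
  have h := eq_one_of_two_pow_of_odd hk' ho
  rwa [mul_eq_one_iff_eq_inv, inv_self hC.root hx] at h

theorem sq_local2 [Finite G] (ha : a ∈ local2 D d) (hb : b ∈ local2 D d) :
    (a * b) ^ 2 = 1 ∨ (a * b) ^ 2 ∈ local2 D d := by
  by_cases h : Commute a b
  · exact Or.inl ((commute_iff hC.root ha.1.1 hb.1.1).mp h)
  · exact Or.inr (mem_local2_of_core2 hC
      (sq_mem hC.root ha.1.1 hb.1.1 h (local2_pow_four hC hb ha.1.1 (local2_commute hC ha)))
      (pow_mem (mul_mem (Subgroup.subset_closure ha) (Subgroup.subset_closure hb)) 2))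

theorem sq_local2_of_not [Finite G] (ha : a ∈ local2 D d) (hb : b ∈ local2 D d)
    (h : ¬ Commute a b) : (a * b) ^ 2 ∈ local2 D d :=
  (sq_local2 hC ha hb).resolve_left fun h' => h ((commute_iff hC.root ha.1.1 hb.1.1).mpr h')

theorem local2_sq_commute (ha : a ∈ local2 D d) (hb : b ∈ local2 D d) :
    Commute ((a * b) ^ 2) a ∧ Commute ((a * b) ^ 2) b :=
  have h4 := local2_pow_four hC hb ha.1.1 (local2_commute hC ha)
  ⟨commute_sq_left hC.root ha.1.1 hb.1.1 h4, commute_sq_right hC.root ha.1.1 hb.1.1 h4⟩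

theorem local2_sq_comm (ha : a ∈ local2 D d) (hb : b ∈ local2 D d) :
    (b * a) ^ 2 = (a * b) ^ 2 := by
  rw [← sq_inv_eq (self hC ha.1.1) (self hC hb.1.1)]
  exact inv_eq_of_mul_eq_one_right
    (by rw [← pow_add]; exact local2_pow_four hC hb ha.1.1 (local2_commute hC ha))

/-- An isolated member centralised by all of them is a twin. -/
theorem twin_of_central [Finite G] (hd : d ∈ D) (hw : w ∈ local2 D d)
    (hcen : ∀ v ∈ local2 D d, Commute w v) : w ∈ sameCommutingClass D d := by
  have hwD := hw.1.1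
  by_contra hne
  have hns : ¬ Same D w d := fun h =>
    hne ⟨hwD, commutingMembers_eq_of_same hC.root hC.one hd hwD h.symm⟩
  obtain ⟨y, hy, hyd⟩ := exists_oddPartner_diff hC.root hC.one hwD hd hns
  obtain ⟨hyD, hyne, hyo⟩ := hy
  have h4 : (y * d) ^ 4 = 1 := (odd_or_pow_four hC.root hyD hd).resolve_left fun h =>
    hyd ⟨hyD, h.1, by rw [odd_comm hC.root hd hyD]; exact h.2⟩
  by_cases hyc : Commute y d
  · have := local2_pow_four hC hw hyD hyc
    rw [odd_comm hC.root hwD hyD] at hyo
    exact hyne (eq_of_odd_of_pow_four hC.root hwD hyo this)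
  obtain ⟨hdd, hyy⟩ := (⟨self hC hd, self hC hyD⟩ : d * d = 1 ∧ y * y = 1)
  set z := (y * d) ^ 2 with hzdef
  have hzD : z ∈ D := sq_mem hC.root hyD hd hyc h4
  have hzy : Commute z y := commute_sq_left hC.root hyD hd h4
  have hyd1 : y * d * y = z * d := by
    rw [hzdef, pow_two, show y * d * (y * d) * d = y * d * y * (d * d) by group, hdd, mul_one]
  have hzW : z ∈ local2 D d := local2_of_line hC ⟨hzD, hd, by
    rw [← hyd1]; exact conj_self_mem hC.root hyD hd⟩
  have hwz : Commute w z := hcen z hzW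
  have hwd := local2_commute hC hw
  set h := w * y with hh
  have e1 : cj h d = z * d := by
    rw [cj_apply, hh, mul_inv_rev, inv_self hC.root hwD, inv_self hC.root hyD,
      show w * y * d * (y * w) = w * (y * d * y) * w by group, hyd1,
      (hwz.mul_right hwd).eq, mul_assoc, self hC hwD, mul_one]
  have e2 : cj h z = z := by
    rw [cj_apply, (Commute.mul_left hwz hzy.symm).eq, mul_inv_cancel_right]
  have e3 : cj (h * h) d = d := by
    rw [← cj_cj, e1, map_mul, e1, e2, ← mul_assoc, self hC hzD, one_mul]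
  have e4 : cj h d = d := by
    obtain ⟨m, hm⟩ := hyo
    have h2 : Commute (h * h) d := by
      rw [cj_apply] at e3; exact mul_inv_eq_iff_eq_mul.mp e3
    have h3 := h2.pow_left (m + 1)
    rw [← pow_two, ← pow_mul, show 2 * (m + 1) = (2 * m + 1) + 1 by omega, pow_succ, ← hm,
      pow_orderOf_eq_one, one_mul] at h3
    rw [cj_apply, h3.eq, mul_inv_cancel_right]
  rw [e1] at e4
  exact ne_one hC.root hzD (mul_eq_right.mp e4)

/-- The lower central terms of the group generated by the isolated members. -/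
def lcs2 (D : Set G) (d : G) : ℕ → Subgroup G
  | 0 => core2 D d
  | k + 1 => ⁅lcs2 D d k, core2 D d⁆

omit hC in
/-- Depth in the central series modulo the twins. -/
def AtDepth (D : Set G) (d : G) (k : ℕ) (x : G) : Prop :=
  ∃ e ∈ twinGroup D d, x * e ∈ lcs2 D d k

omit hC in
theorem lcs2_le : ∀ k, lcs2 D d k ≤ core2 D d
  | 0 => le_rfl
  | k + 1 => le_trans (Subgroup.commutator_mono (lcs2_le k) le_rfl)
      (Subgroup.commutator_le_self _)

omit hC in
theorem lcs2_antitone : Antitone (lcs2 D d) := by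
  refine antitone_nat_of_succ_le fun k => ?_
  induction k with
  | zero => exact lcs2_le 1
  | succ k ih => exact Subgroup.commutator_mono ih le_rfl

theorem depth_zero (hx : x ∈ core2 D d) : AtDepth D d 0 x := by
  exact ⟨1, one_mem _, by rwa [mul_one]⟩

theorem depth_mem (hd : d ∈ D) {k : ℕ} (hx : AtDepth D d k x) : x ∈ core2 D d := by
  obtain ⟨e, he, hxe⟩ := hx
  have := mul_mem (lcs2_le k hxe) (inv_mem (twinGroup_le_core2 hC hd he))
  rwa [mul_inv_cancel_right] at this

omit hC in
theorem depth_mono {j k : ℕ} (h : j ≤ k) (hx : AtDepth D d k x) : AtDepth D d j x :=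
  let ⟨e, he, hxe⟩ := hx
  ⟨e, he, lcs2_antitone h hxe⟩

omit hC in
theorem depth_mul_twin {k : ℕ} (hx : AtDepth D d k x) (he : e ∈ twinGroup D d) :
    AtDepth D d k (x * e) := by
  obtain ⟨f, hf, hxf⟩ := hx
  exact ⟨e⁻¹ * f, mul_mem (inv_mem he) hf, by rw [mul_assoc, mul_inv_cancel_left]; exact hxf⟩

theorem depth_mul (hd : d ∈ D) {k : ℕ} (hx : AtDepth D d k x) (hw : AtDepth D d k w) :
    AtDepth D d k (x * w) := by
  have hwN := depth_mem hC hd hw
  obtain ⟨e, he, hxe⟩ := hx
  obtain ⟨f, hf, hwf⟩ := hw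
  refine ⟨e * f, mul_mem he hf, ?_⟩
  have := mul_mem hxe hwf
  rwa [show x * e * (w * f) = x * (e * w) * f by group,
    ← (core2_commute_twinGroup hC hd he hwN).eq,
    show x * (w * e) * f = x * w * (e * f) by group] at this

theorem depth_inv (hd : d ∈ D) {k : ℕ} (hx : AtDepth D d k x) : AtDepth D d k x⁻¹ := by
  have hxN := depth_mem hC hd hx
  obtain ⟨e, he, hxe⟩ := hx
  refine ⟨e⁻¹, inv_mem he, ?_⟩
  have := inv_mem hxe
  rwa [mul_inv_rev, ← (core2_commute_twinGroup hC hd he hxN).inv_inv.eq] at this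

theorem depth_bracket (hd : d ∈ D) {k : ℕ} (hx : AtDepth D d k x) (hn : n ∈ core2 D d) :
    AtDepth D d (k + 1) (x * n * x⁻¹ * n⁻¹) := by
  obtain ⟨e, he, hxe⟩ := hx
  refine ⟨1, one_mem _, ?_⟩
  have h := Subgroup.commutator_mem_commutator hxe hn
  rw [commutatorElement_def, mul_inv_rev,
    show x * e * n * (e⁻¹ * x⁻¹) * n⁻¹ = x * (e * n) * e⁻¹ * x⁻¹ * n⁻¹ by group,
    ← (core2_commute_twinGroup hC hd he hn).eq,
    show x * (n * e) * e⁻¹ * x⁻¹ * n⁻¹ = x * n * x⁻¹ * n⁻¹ by group] at h
  rwa [mul_one]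

theorem depth_sq (hd : d ∈ D) {k : ℕ} (hx : AtDepth D d k x) (hxD : x ∈ D)
    (hw : w ∈ local2 D d) : AtDepth D d (k + 1) ((x * w) ^ 2) := by
  have := depth_bracket hC hd hx (Subgroup.subset_closure hw)
  rwa [inv_self hC.root hxD, inv_self hC.root hw.1.1,
    show x * w * x * w = (x * w) ^ 2 by simp only [pow_two, mul_assoc]] at this

theorem depth_cj (hd : d ∈ D) {k : ℕ} (hg : Commute g d) (hx : AtDepth D d k x) :
    AtDepth D d k (cj g x) := by
  have key : ∀ j, (lcs2 D d j).map (cj g) ≤ lcs2 D d j := by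
    have h0 : (core2 D d).map (cj g) ≤ core2 D d := by
      rintro _ ⟨z, hz, rfl⟩
      exact cj_core2 hC hg hz
    intro j
    induction j with
    | zero => exact h0
    | succ j ih =>
      show (⁅lcs2 D d j, core2 D d⁆).map (cj g) ≤ _
      rw [Subgroup.map_commutator]
      exact Subgroup.commutator_mono ih h0
  obtain ⟨e, he, hxe⟩ := hx
  refine ⟨cj g e, ?_, by rw [← map_mul]; exact key k ⟨_, hxe, rfl⟩⟩
  have := cj_twinGroup hC hd he g
  rwa [show cj g d = d by rw [cj_apply, hg.eq, mul_inv_cancel_right]] at this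

theorem exists_bound [Finite G] : ∃ K, ∀ k, K ≤ k → ∀ x, AtDepth D d k x → x ∈ twinGroup D d := by
  haveI : Fact (Nat.Prime 2) := ⟨Nat.prime_two⟩
  haveI : Group.IsNilpotent (core2 D d) := (core2_isPGroup hC).isNilpotent
  obtain ⟨K, hK⟩ := Subgroup.nilpotent_iff_lowerCentralSeries.mp
    ‹Group.IsNilpotent (core2 D d)›
  have key : ∀ k, lcs2 D d k ≤
      ((⊤ : Subgroup (core2 D d)).lowerCentralSeries k).map (core2 D d).subtype := by
    intro k
    induction k with
    | zero => exact fun z hz => ⟨⟨z, hz⟩, Subgroup.mem_top _, rfl⟩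
    | succ k ih =>
      rw [Subgroup.lowerCentralSeries_succ, Subgroup.map_commutator]
      exact Subgroup.commutator_mono ih fun z hz => ⟨⟨z, hz⟩, Subgroup.mem_top _, rfl⟩
  refine ⟨K, fun k hk x ⟨e, he, hxe⟩ => ?_⟩
  have := key K (lcs2_antitone hk hxe)
  rw [hK, Subgroup.map_bot, Subgroup.mem_bot, mul_eq_one_iff_eq_inv] at this
  rw [this]
  exact inv_mem he

end Core

end CfsgLib.RootInv.Structure52
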