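import Cfsg.Agent.RootInvolutions.Structure52.NoFix

/-!
A configuration `(a, b)` below a frame: the group generated by the twins of `d`, of `u` and their
squares with `a` and `b` is abelian and invariant.
-/

set_option autoImplicit false

namespace CfsgLib.RootInv.Structure52

open Cfsg CfsgLib.RootInv

variable {G : Type*} [Group G] {D : Set G}

/-- The square of the product of the twin of `u` belonging to `s` with `a`. -/
def arm (g a s : G) : G := (cj g s * a) ^ 2

/-- Two members around a frame whose squares behave additively. -/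
structure Config (D : Set G) (d u g a b : G) : Prop where
  mem_a : a ∈ local2 D d
  mem_b : b ∈ local2 D d
  frame : Frame D d u ((a * b) ^ 2) g
  deep : AllDeep D d ((a * b) ^ 2)
  not_twin : (a * b) ^ 2 ∉ twinGroup D d
  left : ∀ s ∈ twinGroup D d, (arm g b s * a) ^ 2 ∈ twinGroup D d
  right : ∀ s ∈ twinGroup D d, (arm g a s * b) ^ 2 ∈ twinGroup D d
  total : ∀ s ∈ twinGroup D d, (arm g b s * a) ^ 2 * (arm g a s * b) ^ 2 = s
  comm : ∀ s ∈ twinGroup D d, ∀ r ∈ twinGroup D d, Commute (arm g a s) (arm g b r)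

variable (hC : Ctx D) {d u g a b s r : G}

include hC

theorem Config.symm (C : Config D d u g a b) : Config D d u g b a := by
  have hd := C.frame.d_mem
  refine ⟨C.mem_b, C.mem_a, ?_, ?_, ?_, C.right, C.left, fun s hs => ?_, fun s hs r hr =>
    (C.comm r hr s hs).symm⟩
  · rw [local2_sq_comm hC C.mem_a C.mem_b]; exact C.frame
  · rw [local2_sq_comm hC C.mem_a C.mem_b]; exact C.deep
  · rw [local2_sq_comm hC C.mem_a C.mem_b]; exact C.not_twin
  · rw [(twinGroup_commute hC hd (C.right s hs) (C.left s hs)).eq]; exact C.total s hs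

variable [Finite G]

theorem arm_conj (F : Frame D d u r g) (hs : s ∈ twinGroup D d) :
    a * cj g s * a = cj g s * arm g a s :=
  conj_eq_mul_sq (by rw [← map_mul, twinGroup_self_mul hC F.d_mem hs, map_one])

theorem arm_mem (F : Frame D d u r g) (ha : a ∈ local2 D d) (hs : s ∈ twinGroup D d) :
    arm g a s = 1 ∨ (arm g a s ∈ local2 D d ∧ cj g s ∈ local2 D d) := by
  rcases eq_or_ne s 1 with rfl | h1
  · left; rw [arm, map_one, one_mul, pow_two, self hC ha.1.1]
  have hg := F.gs_local2 hC hs h1
  rcases sq_local2 hC hg ha with h | h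
  · exact Or.inl h
  · exact Or.inr ⟨h, hg⟩

theorem arm_core (F : Frame D d u r g) (ha : a ∈ local2 D d) (hs : s ∈ twinGroup D d) :
    arm g a s ∈ core2 D d :=
  pow_mem (mul_mem (F.gs_core hC hs) (Subgroup.subset_closure ha)) 2

theorem arm_self_mul (F : Frame D d u r g) (ha : a ∈ local2 D d) (hs : s ∈ twinGroup D d) :
    arm g a s * arm g a s = 1 := by
  rcases arm_mem hC F ha hs with h | h
  · rw [h, mul_one]
  · exact self hC h.1.1.1

theorem arm_commute_self (F : Frame D d u r g) (ha : a ∈ local2 D d) (hs : s ∈ twinGroup D d) :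
    Commute (arm g a s) a ∧ Commute (arm g a s) (cj g s) := by
  rcases eq_or_ne s 1 with rfl | h1
  · rw [arm, map_one, one_mul, pow_two, self hC ha.1.1]
    exact ⟨Commute.one_left _, Commute.one_left _⟩
  obtain ⟨h, h'⟩ := local2_sq_commute hC (F.gs_local2 hC hs h1) ha
  exact ⟨h', h⟩

theorem arm_commute_twin {v : G} (F : Frame D d u r g) (ha : a ∈ local2 D d)
    (hs : s ∈ twinGroup D d) (hv : v ∈ twinGroup D d) : Commute (arm g a s) (cj g v) := by
  rcases eq_or_ne s 1 with rfl | h1
  · rw [arm, map_one, one_mul, pow_two, self hC ha.1.1]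
    exact Commute.one_left _
  rcases arm_mem hC F ha hs with h | ⟨h, -⟩
  · rw [h]; exact Commute.one_left _
  · refine commute_twinGroup hC F.u_mem (F.gs_twinGroup hC hv) h.1.1 ?_
    exact (twin_commute_iff (F.gs_twin hC hs h1) h.1.1).mp (arm_commute_self hC F ha hs).2

theorem arm_commute_arm {v : G} (F : Frame D d u r g) (ha : a ∈ local2 D d)
    (hs : s ∈ twinGroup D d) (hv : v ∈ twinGroup D d) : Commute (arm g a s) (arm g a v) :=
  ((arm_commute_twin hC F ha hs hv).mul_right (arm_commute_self hC F ha hs).1).pow_right 2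

theorem arm_mul {v : G} (F : Frame D d u r g) (ha : a ∈ local2 D d)
    (hs : s ∈ twinGroup D d) (hv : v ∈ twinGroup D d) :
    arm g a (s * v) = arm g a s * arm g a v := by
  have h1 := arm_conj hC (a := a) F (mul_mem hs hv)
  rw [map_mul, show a * (cj g s * cj g v) * a = (a * cj g s * a) * (a⁻¹ * cj g v * a) by group,
    inv_self hC.root ha.1.1, arm_conj hC F hs, arm_conj hC F hv,
    show cj g s * arm g a s * (cj g v * arm g a v) =
      cj g s * (arm g a s * cj g v) * arm g a v by group,
    (arm_commute_twin hC F ha hs hv).eq,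
    show cj g s * (cj g v * arm g a s) * arm g a v =
      cj g s * cj g v * (arm g a s * arm g a v) by group] at h1
  exact (mul_left_cancel h1).symm

/-- The configuration below a member all whose squares have only twins as squares. -/
theorem config_of_deep (hd : d ∈ D) (ha : a ∈ local2 D d) (hb : b ∈ local2 D d)
    (hA : ∀ w ∈ local2 D d, AllDeep D d ((w * a) ^ 2)) (htU : (a * b) ^ 2 ∉ twinGroup D d) :
    ∃ d' u g, d' ∈ sameCommutingClass D d ∧ Config D d' u g a b := by
  have htA : AllDeep D d ((a * b) ^ 2) := local2_sq_comm hC ha hb ▸ hA b hb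
  have ht : (a * b) ^ 2 ∈ local2 D d :=
    (sq_local2 hC ha hb).resolve_left fun h => htU (h ▸ one_mem _)
  obtain ⟨u, hu, hut⟩ : ∃ u ∈ local2 D d, ¬ Commute ((a * b) ^ 2) u := by
    by_contra hcon
    push Not at hcon
    exact htU (Subgroup.subset_closure (twin_of_central hC hd ht hcon))
  obtain ⟨d', g, -, hd', F, hdp⟩ := mover_frame hC hd hu ht htA fun h => hut h.symm
  refine ⟨d', u, g, hd', ?_⟩
  have hA' : ∀ w ∈ local2 D d', AllDeep D d' ((w * a) ^ 2) := fun w hw =>
    allDeep_twin hC hd' (hA w (local2_eq_of_twin hd' ▸ hw))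
  have hd'D := hd'.1
  rw [← local2_eq_of_twin hd'] at ha hb
  rw [← twinGroup_eq_of_twin hd'] at htU
  clear ht hu hut hA htA
  have htba : (b * a) ^ 2 = (a * b) ^ 2 := local2_sq_comm hC ha hb
  have hmove : ∀ s ∈ twinGroup D d', s ≠ 1 → ¬ Commute (cj g s) ((a * b) ^ 2) := fun s hs h1 hc =>
    h1 (mul_eq_left.mp ((F.phi hC hdp hs).symm.trans (by
      rw [← hc.eq, mul_assoc, self hC F.t_mem, mul_one])))
  have hnot : ∀ s ∈ twinGroup D d', s ≠ 1 →
      arm g a s ∉ twinGroup D d' ∧ arm g b s ∉ twinGroup D d' := fun s hs h1 =>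
    ⟨no_fix hC hd'D ha hb hdp htU (F.gs_local2 hC hs h1) (hmove s hs h1),
      no_fix hC hd'D hb ha (htba.symm ▸ hdp) (htba.symm ▸ htU) (F.gs_local2 hC hs h1)
        (htba.symm ▸ hmove s hs h1)⟩
  have hdeepα : ∀ s ∈ twinGroup D d', AllDeep D d' (arm g a s) := fun s hs w hw => by
    rcases arm_mem hC F ha hs with h | ⟨-, hg⟩
    · rw [h, mul_one, pow_two, self hC hw.1.1]; exact one_mem _
    · exact hA' _ hg w hw
  have hcomm : ∀ s ∈ twinGroup D d', ∀ r ∈ twinGroup D d', Commute (arm g a s) (arm g b r) := by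
    intro s hs r hr
    rcases eq_or_ne s 1 with rfl | h1
    · rw [arm, map_one, one_mul, pow_two, self hC ha.1.1]; exact Commute.one_left _
    rcases arm_mem hC F hb hr with h | ⟨hβ, -⟩
    · rw [h]; exact Commute.one_right _
    by_contra hc
    refine no_fix hC hd'D (F.gs_local2 hC hs h1) ha (hdeepα s hs) (hnot s hs h1).1 hβ
      (fun h => hc h.symm) ?_
    rw [sq_eq_one_of_commute (self hC hβ.1.1) (self hC (F.gs_local2 hC hs h1).1.1)
      (arm_commute_twin hC F hb hr hs)]
    exact one_mem _
  have heq : ∀ s ∈ twinGroup D d', (arm g b s * a) ^ 2 ∈ twinGroup D d' ∧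
      (arm g a s * b) ^ 2 ∈ twinGroup D d' ∧
      (arm g b s * a) ^ 2 * (arm g a s * b) ^ 2 = s := by
    intro s hs
    have haa := self hC ha.1.1
    have hbb := self hC hb.1.1
    have hαβ := hcomm s hs s hs
    set α := arm g a s with hα
    set β := arm g b s with hβ
    have hαα : α * α = 1 := arm_self_mul hC F ha hs
    have hββ : β * β = 1 := arm_self_mul hC F hb hs
    have hf : (α * b) ^ 2 ∈ twinGroup D d' := sq_mem_comm hbb hαα (hdeepα s hs b hb)
    set e := (β * a) ^ 2 with he
    set f := (α * b) ^ 2 with hfdef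
    have hβa : a * β * a = β * e := conj_eq_mul_sq hββ
    have hαb : b * α * b = α * f := conj_eq_mul_sq hαα
    have hβb := (arm_commute_self hC F hb hs).1
    rw [← hβ] at hβb
    have hfc : ∀ {n}, n ∈ core2 D d' → Commute n f :=
      fun hn => core2_commute_twinGroup hC hd'D hf hn
    have hsc : ∀ {n}, n ∈ core2 D d' → Commute n s :=
      fun hn => core2_commute_twinGroup hC hd'D hs hn
    have haN : a ∈ core2 D d' := Subgroup.subset_closure ha
    have hbN : b ∈ core2 D d' := Subgroup.subset_closure hb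
    have h : (a * b) ^ 2 * cj g s * (a * b) ^ 2 = cj g s * (f * (a * (b * e * b) * a)) := by
      conv_lhs => arg 1; arg 1; rw [pow_two]
      conv_lhs => arg 2; rw [← htba, pow_two]
      rw [show a * b * (a * b) * cj g s * (b * a * (b * a)) =
          a * (b * (a * (b * cj g s * b) * a) * b) * a by group,
        arm_conj hC F hs, ← hβ,
        show a * (cj g s * β) * a = (a * cj g s * a) * (a⁻¹ * β * a) by group,
        inv_eq_of_mul_eq_one_right haa, arm_conj hC F hs, ← hα, hβa,
        show b * (cj g s * α * (β * e)) * b =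
          (b * cj g s * b) * (b⁻¹ * α * b) * (b⁻¹ * β * e * b) by group,
        inv_eq_of_mul_eq_one_right hbb, arm_conj hC F hs, ← hβ, hαb, ← hβb.eq,
        show cj g s * β * (α * f) * (β * b * e * b) =
          cj g s * (β * α) * (f * β) * (b * e * b) by group, ← hαβ.eq,
        ← (hfc (arm_core hC F hb hs)).eq, ← hβ,
        show cj g s * (α * β) * (β * f) * (b * e * b) =
          cj g s * α * (β * β) * f * (b * e * b) by group, hββ, mul_one,
        show a * (cj g s * α * f * (b * e * b)) * a =
          (a * cj g s * a) * (a⁻¹ * α * a) * (a⁻¹ * f * a) * (a⁻¹ * (b * e * b) * a) by group,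
        inv_eq_of_mul_eq_one_right haa, arm_conj hC F hs, ← hα,
        show a * α * a = (a * α) * a from rfl, ← (arm_commute_self hC F ha hs).1.eq, ← hα,
        mul_assoc α a a, haa, mul_one, (hfc haN).eq, mul_assoc f a a, haa, mul_one,
        mul_assoc (cj g s) α α, hαα, mul_one, mul_assoc]
    rw [F.phi hC hdp hs] at h
    have h' := mul_left_cancel h
    have he' : e = f * s := by
      have h'' : a * (b * e * b) * a = f * s := by
        conv_rhs => rw [h', ← mul_assoc, twinGroup_self_mul hC hd'D hf, one_mul]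
      have hm : f * s ∈ twinGroup D d' := mul_mem hf hs
      have e1 : b * e * b = a * (f * s) * a := by
        rw [← h'', show a * (a * (b * e * b) * a) * a = (a * a) * (b * e * b) * (a * a) by group,
          haa, one_mul, mul_one]
      rw [(core2_commute_twinGroup hC hd'D hm haN).eq, mul_assoc (f * s), haa, mul_one] at e1
      have e2 : e = b * (f * s) * b := by
        rw [← e1, show b * (b * e * b) * b = (b * b) * e * (b * b) by group, hbb, one_mul, mul_one]
      rwa [(core2_commute_twinGroup hC hd'D hm hbN).eq, mul_assoc (f * s), hbb, mul_one] at e2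
    refine ⟨he' ▸ mul_mem hf hs, hf, ?_⟩
    rw [he', mul_assoc, ← (hfc (twinGroup_le_core2 hC hd'D hs)).symm.eq, ← mul_assoc,
      twinGroup_self_mul hC hd'D hf, one_mul]
  exact ⟨ha, hb, F, hdp, htU, fun s hs => (heq s hs).1, fun s hs => (heq s hs).2.1,
    fun s hs => (heq s hs).2.2, hcomm⟩

end CfsgLib.RootInv.Structure52
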