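import Cfsg.Agent.RootInvolutions.Structure52.Config

/-!
No configuration exists: the product of `a` and a conjugate of `t` can have neither odd order nor
order dividing four on the invariant abelian group.
-/

set_option autoImplicit false

namespace CfsgLib.RootInv.Structure52

open Cfsg CfsgLib.RootInv

variable {G : Type*} [Group G] {D : Set G}

/-- `f` corrects the arm at `s` into a fixed point of the frame. -/
def Corrects (D : Set G) (d g t a s f : G) : Prop :=
  f ∈ twinGroup D d ∧ cj g (arm g a s * f) = arm g a s * f ∧ Commute (arm g a s * f) t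

/-- The abelian group of the configuration. -/
def window (D : Set G) (d g a b : G) : Subgroup G :=
  Subgroup.closure {x | ∃ s ∈ twinGroup D d, x = s ∨ x = cj g s ∨ x = arm g a s ∨ x = arm g b s}

/-- The displacements of the window under an involution. -/
def moved (M : Subgroup G) (p : G) : Set G := (fun m => m * (p * m * p)) '' (M : Set G)

theorem moved_conj {M : Subgroup G} {k p q : G} (hk : k ∈ Subgroup.normalizer (M : Set G))
    (hq : q = k * p * k⁻¹) : moved M q = cj k '' moved M p := by
  have e : ∀ m, m * (q * m * q) = cj k (cj k⁻¹ m * (p * cj k⁻¹ m * p)) := fun m => by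
    rw [hq]; simp only [cj_apply]; group
  ext z
  constructor
  · rintro ⟨m, hm, rfl⟩
    refine ⟨_, ⟨cj k⁻¹ m, ?_, rfl⟩, (e m).symm⟩
    exact (Subgroup.mem_normalizer_iff.mp (inv_mem hk) m).mp hm
  · rintro ⟨_, ⟨m, hm, rfl⟩, rfl⟩
    refine ⟨cj k m, (Subgroup.mem_normalizer_iff.mp hk m).mp hm, ?_⟩
    show cj k m * (q * cj k m * q) = _
    rw [e, cj_cj, inv_mul_cancel, cj_apply 1, one_mul, inv_one, mul_one]

theorem mem_normalizer_of_invol {M : Subgroup G} {p : G} (hp : p * p = 1)
    (h : ∀ m ∈ M, p * m * p ∈ M) : p ∈ Subgroup.normalizer (M : Set G) := by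
  refine Subgroup.mem_normalizer_iff.mpr fun m => ?_
  rw [inv_eq_of_mul_eq_one_right hp]
  refine ⟨h m, fun hm => ?_⟩
  have := h _ hm
  rwa [show p * (p * m * p) * p = (p * p) * m * (p * p) by group, hp, one_mul, mul_one] at this

variable (hC : Ctx D) [Finite G] {d u g a b s r : G} (C : Config D d u g a b)

include hC C

theorem Config.t_fix (hs : s ∈ twinGroup D d) :
    Commute (arm g a s) ((a * b) ^ 2) := by
  have F := C.frame
  have hd := F.d_mem
  have ha := C.mem_a
  have haa := self hC ha.1.1
  have hbb := self hC C.mem_b.1.1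
  have hαα := arm_self_mul hC F ha hs
  have hbα : b * arm g a s * b = arm g a s * (arm g a s * b) ^ 2 := conj_eq_mul_sq hαα
  have haα : a * arm g a s * a = arm g a s := by
    rw [← (arm_commute_self hC F ha hs).1.eq, mul_assoc, haa, mul_one]
  have hf := C.right s hs
  set f := (arm g a s * b) ^ 2 with hfdef
  have hff := twinGroup_self_mul hC hd hf
  have hfa : a * f * a = f := by
    rw [(core2_commute_twinGroup hC hd hf (Subgroup.subset_closure ha)).eq, mul_assoc, haa, mul_one]
  have hfb : b * f * b = f := by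
    rw [(core2_commute_twinGroup hC hd hf (Subgroup.subset_closure C.mem_b)).eq, mul_assoc, hbb,
      mul_one]
  have e : (a * b) ^ 2 * arm g a s * (a * b) ^ 2 = arm g a s := by
    conv_lhs => arg 2; rw [← local2_sq_comm hC ha C.mem_b, pow_two]
    conv_lhs => arg 1; arg 1; rw [pow_two]
    rw [show a * b * (a * b) * arm g a s * (b * a * (b * a)) =
        a * (b * (a * (b * arm g a s * b) * a) * b) * a by group, hbα,
      show a * (arm g a s * f) * a = (a * arm g a s * a) * (a⁻¹ * f * a) by group,
      inv_eq_of_mul_eq_one_right haa, haα, hfa,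
      show b * (arm g a s * f) * b = (b * arm g a s * b) * (b⁻¹ * f * b) by group,
      inv_eq_of_mul_eq_one_right hbb, hbα, hfb, mul_assoc _ f f, hff, mul_one, haα]
  show arm g a s * (a * b) ^ 2 = (a * b) ^ 2 * arm g a s
  conv_lhs => rw [← e, mul_assoc, self hC F.t_mem, mul_one]

theorem Config.exists_corrects (hs : s ∈ twinGroup D d) :
    ∃ f, Corrects D d g ((a * b) ^ 2) a s f := by
  have F := C.frame
  rcases arm_mem hC F C.mem_a hs with h | ⟨h, hg⟩
  · exact ⟨1, one_mem _, by rw [mul_one, h, map_one], by rw [mul_one, h]; exact Commute.one_left _⟩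
  have hs1 : s ≠ 1 := fun h1 => ne_one hC.root hg.1.1 (by rw [h1, map_one])
  have hfix := C.t_fix hC hs
  obtain ⟨f, hf, h1, h2⟩ := F.fix hC C.deep hfix (F.cj_local2 hC hs hs1 (F.phi hC C.deep hs) h.1.1
    hfix (by
      rw [(arm_commute_self hC F C.mem_a hs).2.eq, ← arm_conj hC F hs]
      exact conj_self_mem hC.root C.mem_a.1.1 hg.1.1))
  exact ⟨f, hf, h1, h2⟩

theorem Config.window_comm {x z : G} (hx : x ∈ window D d g a b) (hz : z ∈ window D d g a b) :
    Commute x z := by
  have F := C.frame
  have hd := F.d_mem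
  have ha := C.mem_a
  have hb := C.mem_b
  have key : ∀ s ∈ twinGroup D d, ∀ r ∈ twinGroup D d,
      ∀ p, (p = s ∨ p = cj g s ∨ p = arm g a s ∨ p = arm g b s) →
      ∀ q, (q = r ∨ q = cj g r ∨ q = arm g a r ∨ q = arm g b r) → Commute p q := by
    intro s hs r hr p hp q hq
    have hcore : ∀ s ∈ twinGroup D d, ∀ p, (p = s ∨ p = cj g s ∨ p = arm g a s ∨ p = arm g b s) →
        p ∈ core2 D d := by
      rintro s hs p (rfl | rfl | rfl | rfl)
      exacts [twinGroup_le_core2 hC hd hs, F.gs_core hC hs, arm_core hC F ha hs,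
        arm_core hC F hb hs]
    rcases hp with rfl | rfl | rfl | rfl
    · exact (core2_commute_twinGroup hC hd hs (hcore r hr q hq)).symm
    all_goals rcases hq with rfl | rfl | rfl | rfl
    · exact core2_commute_twinGroup hC hd hr (F.gs_core hC hs)
    · exact (twinGroup_commute hC hd hs hr).map (cj g)
    · exact (arm_commute_twin hC F ha hr hs).symm
    · exact (arm_commute_twin hC F hb hr hs).symm
    · exact core2_commute_twinGroup hC hd hr (arm_core hC F ha hs)
    · exact arm_commute_twin hC F ha hs hr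
    · exact arm_commute_arm hC F ha hs hr
    · exact C.comm s hs r hr
    · exact core2_commute_twinGroup hC hd hr (arm_core hC F hb hs)
    · exact arm_commute_twin hC F hb hs hr
    · exact (C.comm r hr s hs).symm
    · exact arm_commute_arm hC F hb hs hr
  induction hx, hz using Subgroup.closure_induction₂ with
  | mem p q hp hq =>
    obtain ⟨s, hs, hp⟩ := hp
    obtain ⟨r, hr, hq⟩ := hq
    exact key s hs r hr p hp q hq
  | one_left _ _ => exact Commute.one_left _
  | one_right _ _ => exact Commute.one_right _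
  | mul_left _ _ _ _ _ _ h1 h2 => exact h1.mul_left h2
  | mul_right _ _ _ _ _ _ h1 h2 => exact h1.mul_right h2
  | inv_left _ _ _ _ h => exact h.inv_left
  | inv_right _ _ _ _ h => exact h.inv_right

theorem Config.window_self_mul {x : G} (hx : x ∈ window D d g a b) : x * x = 1 := by
  have F := C.frame
  induction hx using Subgroup.closure_induction with
  | mem p hp =>
    obtain ⟨s, hs, rfl | rfl | rfl | rfl⟩ := hp
    exacts [twinGroup_self_mul hC F.d_mem hs,
      by rw [← map_mul, twinGroup_self_mul hC F.d_mem hs, map_one],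
      arm_self_mul hC F C.mem_a hs, arm_self_mul hC F C.mem_b hs]
  | one => exact one_mul 1
  | mul p q hp hq h1 h2 =>
    rw [show p * q * (p * q) = p * (q * p) * q by group, (C.window_comm hC hq hp).eq,
      show p * (p * q) * q = (p * p) * (q * q) by group, h1, h2, one_mul]
  | inv p _ h => rw [← mul_inv_rev, h, inv_one]

omit hC [Finite G] C in
theorem window_gen (hs : s ∈ twinGroup D d) :
    s ∈ window D d g a b ∧ cj g s ∈ window D d g a b ∧ arm g a s ∈ window D d g a b ∧
      arm g b s ∈ window D d g a b :=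
  ⟨Subgroup.subset_closure ⟨s, hs, .inl rfl⟩, Subgroup.subset_closure ⟨s, hs, .inr (.inl rfl)⟩,
    Subgroup.subset_closure ⟨s, hs, .inr (.inr (.inl rfl))⟩,
    Subgroup.subset_closure ⟨s, hs, .inr (.inr (.inr rfl))⟩⟩

omit hC [Finite G] C in
theorem window_symm : window D d g b a = window D d g a b := by
  unfold window
  congr 1
  ext x
  simp only [Set.mem_setOf_eq]
  constructor <;> rintro ⟨s, hs, h | h | h | h⟩ <;> exact ⟨s, hs, by tauto⟩

theorem Config.normalize_left : a ∈ Subgroup.normalizer (window D d g a b : Set G) := by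
  have F := C.frame
  have ha := C.mem_a
  have haa := self hC ha.1.1
  refine mem_normalizer_of_invol haa fun m hm => ?_
  induction hm using Subgroup.closure_induction with
  | mem p hp =>
    obtain ⟨s, hs, rfl | rfl | rfl | rfl⟩ := hp
    · rw [(core2_commute_twinGroup hC F.d_mem hs (Subgroup.subset_closure ha)).eq, mul_assoc, haa,
        mul_one]
      exact (window_gen hs).1
    · rw [arm_conj hC F hs]
      exact mul_mem (window_gen hs).2.1 (window_gen hs).2.2.1
    · rw [← (arm_commute_self hC F ha hs).1.eq, mul_assoc, haa, mul_one]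
      exact (window_gen hs).2.2.1
    · rw [conj_eq_mul_sq (arm_self_mul hC F C.mem_b hs)]
      exact mul_mem (window_gen hs).2.2.2 (window_gen (C.left s hs)).1
  | one => rw [mul_one, haa]; exact one_mem _
  | mul p q _ _ h1 h2 =>
    rw [show a * (p * q) * a = (a * p * a) * (a⁻¹ * q * a) by group,
      inv_eq_of_mul_eq_one_right haa]
    exact mul_mem h1 h2
  | inv p _ h =>
    rw [show a * p⁻¹ * a = (a⁻¹ * p * a⁻¹)⁻¹ by group, inv_eq_of_mul_eq_one_right haa]
    exact inv_mem h

theorem Config.normalize_right : b ∈ Subgroup.normalizer (window D d g a b : Set G) := by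
  rw [← window_symm]
  exact (C.symm hC).normalize_left hC

theorem Config.y_twin (hs : s ∈ twinGroup D d) :
    cj g ((a * b) ^ 2) * s * cj g ((a * b) ^ 2) = s * cj g s ∧
      cj g ((a * b) ^ 2) * cj g s * cj g ((a * b) ^ 2) = cj g s := by
  have F := C.frame
  constructor
  · have h1 := F.t_cj hC (cj g s)
    rw [F.phi hC C.deep hs, map_mul, map_mul, F.cycle] at h1
    conv_lhs => arg 1; arg 2; rw [← F.cycle s]
    rw [← map_mul, ← map_mul, h1, map_mul, F.cycle]
    exact (core2_commute_twinGroup hC F.d_mem hs (F.gs_core hC hs)).eq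
  · rw [← map_mul, ← map_mul, F.t_twin hC hs]

theorem Config.y_arm {f : G} (hs : s ∈ twinGroup D d)
    (hf : Corrects D d g ((a * b) ^ 2) a s f) :
    cj g ((a * b) ^ 2) * arm g a s * cj g ((a * b) ^ 2) = arm g a s * cj g f := by
  obtain ⟨hfU, hfix, hct⟩ := hf
  have F := C.frame
  have htt := self hC F.t_mem
  set y := cj g ((a * b) ^ 2) with hy
  have hyy : y * y = 1 := by rw [hy, ← map_mul, htt, map_one]
  have h1 : y * (arm g a s * f) * y = arm g a s * f := by
    conv_lhs => arg 1; arg 2; rw [← hfix]
    rw [hy, ← map_mul, ← map_mul, ← hct.eq, mul_assoc, htt, mul_one, hfix]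
  have hff := twinGroup_self_mul hC F.d_mem hfU
  have h2 := (C.y_twin hC hfU).1
  rw [← hy] at h2
  calc y * arm g a s * y = y * (arm g a s * f) * (y * y) * f * y := by
        rw [hyy, mul_one, show y * (arm g a s * f) * f * y = y * arm g a s * (f * f) * y by group,
          hff, mul_one]
    _ = (y * (arm g a s * f) * y) * (y * f * y) := by group
    _ = arm g a s * f * (f * cj g f) := by rw [h1, h2]
    _ = _ := by rw [show arm g a s * f * (f * cj g f) = arm g a s * (f * f) * cj g f by group, hff,
        mul_one]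

theorem Config.normalize_y : cj g ((a * b) ^ 2) ∈
    Subgroup.normalizer (window D d g a b : Set G) ∧
    ∀ m ∈ window D d g a b, ∃ s ∈ twinGroup D d,
      cj g ((a * b) ^ 2) * m * cj g ((a * b) ^ 2) = m * cj g s := by
  have F := C.frame
  set y := cj g ((a * b) ^ 2) with hy
  have hyy : y * y = 1 := by rw [hy, ← map_mul, self hC F.t_mem, map_one]
  have key : ∀ m ∈ window D d g a b, ∃ s ∈ twinGroup D d, y * m * y = m * cj g s := by
    intro m hm
    induction hm using Subgroup.closure_induction with
    | mem p hp =>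
      obtain ⟨s, hs, rfl | rfl | rfl | rfl⟩ := hp
      · exact ⟨p, hs, (C.y_twin hC hs).1⟩
      · exact ⟨1, one_mem _, by rw [map_one, mul_one]; exact (C.y_twin hC hs).2⟩
      · obtain ⟨f, hf⟩ := C.exists_corrects hC hs
        exact ⟨f, hf.1, C.y_arm hC hs hf⟩
      · obtain ⟨f, hf⟩ := (C.symm hC).exists_corrects hC hs
        have := (C.symm hC).y_arm hC hs hf
        rw [local2_sq_comm hC C.mem_a C.mem_b] at this
        exact ⟨f, hf.1, this⟩
    | one => exact ⟨1, one_mem _, by rw [mul_one, hyy, map_one, mul_one]⟩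
    | mul p q _ hq h1 h2 =>
      obtain ⟨s, hs, h1⟩ := h1
      obtain ⟨r, hr, h2⟩ := h2
      refine ⟨s * r, mul_mem hs hr, ?_⟩
      rw [show y * (p * q) * y = (y * p * y) * (y⁻¹ * q * y) by group,
        inv_eq_of_mul_eq_one_right hyy, h1, h2, map_mul,
        show p * cj g s * (q * cj g r) = p * (cj g s * q) * cj g r by group,
        (C.window_comm hC (window_gen hs).2.1 hq).eq]
      group
    | inv p hp h =>
      obtain ⟨s, hs, h⟩ := h
      rw [inv_eq_of_mul_eq_one_right (C.window_self_mul hC hp)]
      exact ⟨s, hs, h⟩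
  refine ⟨mem_normalizer_of_invol hyy fun m hm => ?_, key⟩
  obtain ⟨s, hs, h⟩ := key m hm
  rw [h]
  exact mul_mem hm (window_gen hs).2.1

theorem Config.flip_eq_one {s₀ f₀ f₁ : G} (he : ∃ r ∈ twinGroup D d, (arm g b r * a) ^ 2 ≠ 1)
    (hs₀ : s₀ ∈ twinGroup D d) (h₀ : Corrects D d g ((a * b) ^ 2) a s₀ f₀)
    (h₁ : Corrects D d g ((a * b) ^ 2) a (s₀ * f₀) f₁) : s₀ * f₀ * f₁ = 1 := by
  have F := C.frame
  have hd := F.d_mem
  have ha := C.mem_a
  have hb := C.mem_b
  have haa := self hC ha.1.1
  have hbb := self hC hb.1.1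
  set M := window D d g a b with hMdef
  have hc : ∀ {x z}, x ∈ M → z ∈ M → Commute x z := fun hx hz => C.window_comm hC hx hz
  obtain ⟨hyN, hyM⟩ := C.normalize_y hC
  set y := cj g ((a * b) ^ 2) with hy
  have hyy : y * y = 1 := by rw [hy, ← map_mul, self hC F.t_mem, map_one]
  set p := b * y * b with hp
  have hpD : p ∈ D := conj_self_mem hC.root hb.1.1 (hC.root.conj_mem _ F.t_mem g)
  have haN := C.normalize_left hC
  have hbN := C.normalize_right hC
  have hpN : p ∈ Subgroup.normalizer (M : Set G) := mul_mem (mul_mem hbN hyN) hbN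
  -- displacements
  have hsmall : (moved M y).ncard ≤ Nat.card (twinGroup D d) := by
    have hsub : moved M y ⊆ cj g '' (twinGroup D d : Set G) := by
      rintro _ ⟨m, hm, rfl⟩
      obtain ⟨s, hs, h⟩ := hyM m hm
      refine ⟨s, hs, ?_⟩
      show cj g s = m * (y * m * y)
      rw [h, ← mul_assoc, C.window_self_mul hC hm, one_mul]
    refine (Set.ncard_le_ncard hsub (Set.toFinite _)).trans (le_of_eq ?_)
    rw [Set.ncard_image_of_injective _ (cj_injective g), ← Nat.card_coe_set_eq]
    rfl
  have hlarge : Nat.card (twinGroup D d) < (moved M a).ncard := by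
    obtain ⟨r, hr, her⟩ := he
    set e := (arm g b r * a) ^ 2 with hedef
    have heU := C.left r hr
    have hm1 : ∀ s ∈ twinGroup D d, arm g a s ∈ moved M a := fun s hs =>
      ⟨cj g s, (window_gen hs).2.1, by
        show cj g s * (a * cj g s * a) = _
        rw [arm_conj hC F hs, ← mul_assoc, ← map_mul, twinGroup_self_mul hC hd hs, map_one,
          one_mul]⟩
    have hm2 : ∀ s ∈ twinGroup D d, arm g a s * e ∈ moved M a := fun s hs =>
      ⟨cj g s * arm g b r, mul_mem (window_gen hs).2.1 (window_gen hr).2.2.2, by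
        show cj g s * arm g b r * (a * (cj g s * arm g b r) * a) = _
        rw [show a * (cj g s * arm g b r) * a = (a * cj g s * a) * (a⁻¹ * arm g b r * a) by group,
          inv_eq_of_mul_eq_one_right haa, arm_conj hC F hs,
          conj_eq_mul_sq (arm_self_mul hC F hb hr), ← hedef,
          show cj g s * arm g b r * (cj g s * arm g a s * (arm g b r * e)) =
            cj g s * (arm g b r * (cj g s * arm g a s)) * (arm g b r * e) by group,
          (hc (window_gen hr).2.2.2
            (mul_mem (window_gen hs).2.1 (window_gen hs).2.2.1)).eq,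
          show cj g s * (cj g s * arm g a s * arm g b r) * (arm g b r * e) =
            (cj g s * cj g s) * arm g a s * (arm g b r * arm g b r) * e by group,
          arm_self_mul hC F hb hr, ← map_mul, twinGroup_self_mul hC hd hs, map_one, one_mul,
          mul_one]⟩
    have hnot : ∀ s ∈ twinGroup D d, arm g a s ∈ twinGroup D d → s = 1 := fun s hs h => by
      by_contra h1
      refine no_fix hC hd ha hb C.deep C.not_twin (F.gs_local2 hC hs h1) (fun hcm => h1 ?_) h
      exact mul_eq_left.mp ((F.phi hC C.deep hs).symm.trans (by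
        rw [← hcm.eq, mul_assoc, self hC F.t_mem, mul_one]))
    have hinj : Function.Injective fun s : twinGroup D d => arm g a s := by
      intro s q hsq
      have h1 : arm g a ((s : G) * q) = 1 := by
        rw [arm_mul hC F ha s.2 q.2, show arm g a (s : G) = arm g a q from hsq,
          arm_self_mul hC F ha q.2]
      have := hnot _ (mul_mem s.2 q.2) (h1 ▸ one_mem _)
      rw [mul_eq_one_iff_eq_inv, twinGroup_inv hC hd q.2] at this
      exact Subtype.ext this
    have hcard : (Set.range fun s : twinGroup D d => arm g a s).ncard = Nat.card (twinGroup D d) :=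
      by rw [← Nat.card_coe_set_eq, Nat.card_range_of_injective hinj]
    refine lt_of_lt_of_le ?_ (Set.ncard_le_ncard (s := insert e (Set.range
      fun s : twinGroup D d => arm g a s)) ?_ (Set.toFinite _))
    · rw [Set.ncard_insert_of_notMem ?_ (Set.toFinite _), hcard]
      · omega
      rintro ⟨s, hs⟩
      have h1 := hnot _ s.2 (show arm g a (s : G) ∈ twinGroup D d by
        rw [show arm g a (s : G) = e from hs]; exact heU)
      refine her ?_
      rw [← hs]
      show arm g a (s : G) = 1
      rw [h1, arm, map_one, one_mul, pow_two, haa]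
    · rintro z (rfl | ⟨s, rfl⟩)
      · have := hm2 1 (one_mem _)
        rwa [show arm g a 1 = 1 by rw [arm, map_one, one_mul, pow_two, haa], one_mul] at this
      · exact hm1 _ s.2
  rcases odd_or_pow_four hC.root ha.1.1 hpD with ⟨-, ho⟩ | h4
  · exfalso
    obtain ⟨m, hm⟩ := ho
    set x := a * p with hx
    have hxN : x ^ m ∈ Subgroup.normalizer (M : Set G) := pow_mem (mul_mem haN hpN) m
    have hxi : x⁻¹ = p * a := by
      rw [hx, mul_inv_rev, inv_self hC.root hpD, inv_self hC.root ha.1.1]
    have hs : SemiconjBy a x x⁻¹ := by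
      show a * x = x⁻¹ * a
      rw [hxi, hx, ← mul_assoc, haa, one_mul, mul_assoc, haa, mul_one]
    have hconj : p = x ^ m * a * (x ^ m)⁻¹ := by
      have h1 := ((hs.pow_right m).inv_right).eq
      rw [inv_pow, inv_inv] at h1
      rw [mul_assoc, h1, ← mul_assoc, ← pow_add, show m + m = 2 * m by ring,
        show x ^ (2 * m) = x⁻¹ from eq_inv_of_mul_eq_one_left
          (by rw [← pow_succ, ← hm, pow_orderOf_eq_one]), hxi, mul_assoc, haa, mul_one]
    have h1 : (moved M p).ncard = (moved M a).ncard := by
      rw [moved_conj hxN hconj, Set.ncard_image_of_injective _ (cj_injective _)]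
    have h2 : (moved M p).ncard = (moved M y).ncard := by
      rw [moved_conj (p := y) hbN (by rw [hp, inv_self hC.root hb.1.1]),
        Set.ncard_image_of_injective _ (cj_injective _)]
    omega
  -- the two compositions agree on one vector
  have hs₁ := mul_mem hs₀ h₀.1
  have hs₂ := mul_mem hs₁ h₁.1
  let v : G → G := fun s => cj g s * arm g b s
  let R : G → G := fun s => arm g a s * (arm g b s * a) ^ 2
  have hvM : ∀ s ∈ twinGroup D d, v s ∈ M := fun s hs =>
    mul_mem (window_gen hs).2.1 (window_gen hs).2.2.2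
  have hRM : ∀ s ∈ twinGroup D d, R s ∈ M := fun s hs =>
    mul_mem (window_gen hs).2.2.1 (window_gen (C.left s hs)).1
  have hv : ∀ s ∈ twinGroup D d, b * cj g s * b = v s := fun s hs => arm_conj hC F hs
  have hAv : ∀ s ∈ twinGroup D d, a * v s * a = v s * R s := fun s hs => by
    show a * (cj g s * arm g b s) * a = cj g s * arm g b s * (arm g a s * (arm g b s * a) ^ 2)
    rw [show a * (cj g s * arm g b s) * a = (a * cj g s * a) * (a⁻¹ * arm g b s * a) by group,
      inv_eq_of_mul_eq_one_right haa, arm_conj hC F hs,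
      conj_eq_mul_sq (arm_self_mul hC F hb hs),
      show cj g s * arm g a s * (arm g b s * (arm g b s * a) ^ 2) =
        cj g s * (arm g a s * arm g b s) * (arm g b s * a) ^ 2 by group,
      (hc (window_gen hs).2.2.1 (window_gen hs).2.2.2).eq]
    group
  have hAR : ∀ s ∈ twinGroup D d, a * R s * a = R s := fun s hs => by
    have h1 : Commute a (R s) := (arm_commute_self hC F ha hs).1.symm.mul_right
      (core2_commute_twinGroup hC hd (C.left s hs) (Subgroup.subset_closure ha))
    rw [h1.eq, mul_assoc, haa, mul_one]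
  have hPv : ∀ s ∈ twinGroup D d, p * v s * p = v s := fun s hs => by
    rw [hp, ← hv s hs,
      show b * y * b * (b * cj g s * b) * (b * y * b) = b * y * (b * b) * cj g s * (b * b) * y * b by
        group, hbb, mul_one, mul_one,
      show b * y * cj g s * y * b = b * (y * cj g s * y) * b by group, (C.y_twin hC hs).2]
  have hPR : ∀ s ∈ twinGroup D d, ∀ f, Corrects D d g ((a * b) ^ 2) a s f →
      p * R s * p = R s * v (s * f) := by
    intro s hs f hf
    have htot := C.total s hs
    have hee := C.left s hs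
    have hff := C.right s hs
    set e := (arm g b s * a) ^ 2 with he'
    set φ := (arm g a s * b) ^ 2 with hφ
    have hbα : b * arm g a s * b = arm g a s * φ := conj_eq_mul_sq (arm_self_mul hC F ha hs)
    have hbN' : b ∈ core2 D d := Subgroup.subset_closure hb
    have hbU : ∀ z ∈ twinGroup D d, b * z * b = z := fun z hz => by
      rw [(core2_commute_twinGroup hC hd hz hbN').eq, mul_assoc, hbb, mul_one]
    have h1 : b * R s * b = arm g a s * s := by
      show b * (arm g a s * e) * b = _
      rw [show b * (arm g a s * e) * b = (b * arm g a s * b) * (b⁻¹ * e * b) by group,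
        inv_eq_of_mul_eq_one_right hbb, hbα, hbU e hee, mul_assoc,
        (twinGroup_commute hC hd hff hee).eq, htot]
    have h2 : y * (arm g a s * s) * y = arm g a s * s * cj g (s * f) := by
      rw [show y * (arm g a s * s) * y = (y * arm g a s * y) * (y⁻¹ * s * y) by group,
        inv_eq_of_mul_eq_one_right hyy, C.y_arm hC hs hf, (C.y_twin hC hs).1,
        show arm g a s * cj g f * (s * cj g s) = arm g a s * (cj g f * (s * cj g s)) by group,
        (hc (window_gen hf.1).2.1 (mul_mem (window_gen hs).1 (window_gen hs).2.1)).eq, map_mul]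
      group
    have h3 : b * (arm g a s * s) * b = R s := by
      rw [← h1, show b * (b * R s * b) * b = (b * b) * R s * (b * b) by group, hbb, one_mul, mul_one]
    calc p * R s * p = b * (y * (b * R s * b) * y) * b := by rw [hp]; group
      _ = (b * (arm g a s * s) * b) * (b⁻¹ * cj g (s * f) * b) := by rw [h1, h2]; group
      _ = _ := by rw [h3, inv_eq_of_mul_eq_one_right hbb, hv _ (mul_mem hs hf.1)]
  have hA2 : ∀ z w : G, a * (z * w) * a = (a * z * a) * (a * w * a) := fun z w => by
    rw [show (a * z * a) * (a * w * a) = a * z * (a * a) * w * a by group, haa]; group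
  have hP2 : ∀ z w : G, p * (z * w) * p = (p * z * p) * (p * w * p) := fun z w => by
    rw [show (p * z * p) * (p * w * p) = p * z * (p * p) * w * p by group,
      self hC hpD]; group
  have q1 : p * v s₀ * p = v s₀ := hPv _ hs₀
  have q2 : a * v s₀ * a = v s₀ * R s₀ := hAv _ hs₀
  have q3 : p * (v s₀ * R s₀) * p = v s₀ * (R s₀ * v (s₀ * f₀)) := by
    rw [hP2 (v s₀) (R s₀), q1, hPR _ hs₀ _ h₀]
  have q4 : a * (v s₀ * (R s₀ * v (s₀ * f₀))) * a =
      v s₀ * v (s₀ * f₀) * R (s₀ * f₀) := by
    rw [hA2 (v s₀) (R s₀ * v (s₀ * f₀)), hA2 (R s₀) (v (s₀ * f₀)), q2, hAR _ hs₀, hAv _ hs₁,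
      show v s₀ * R s₀ * (R s₀ * (v (s₀ * f₀) * R (s₀ * f₀))) =
        v s₀ * (R s₀ * R s₀) * v (s₀ * f₀) * R (s₀ * f₀) by group,
      C.window_self_mul hC (hRM _ hs₀), mul_one]
  have q5 : p * (v s₀ * v (s₀ * f₀) * R (s₀ * f₀)) * p =
      v s₀ * v (s₀ * f₀) * R (s₀ * f₀) * v (s₀ * f₀ * f₁) := by
    rw [hP2 (v s₀ * v (s₀ * f₀)) (R (s₀ * f₀)), hP2 (v s₀) (v (s₀ * f₀)), q1, hPv _ hs₁,
      hPR _ hs₁ _ h₁, ← mul_assoc]
  set v0 := v s₀
  set r0 := R s₀
  set v1 := v (s₀ * f₀)
  set r1 := R (s₀ * f₀)
  set v2 := v (s₀ * f₀ * f₁)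
  have hX : a * (p * (a * (p * v0 * p) * a) * p) * a = v0 * v1 * r1 := by
    rw [q1, q2, q3, q4]
  have hY : p * (a * (p * (a * v0 * a) * p) * a) * p = v0 * v1 * r1 * v2 := by
    rw [q2, q3, q4, q5]
  have hxy : (a * p) * (a * p) = (p * a) * (p * a) := by
    have h : ((a * p) ^ 2)⁻¹ = (a * p) ^ 2 :=
      inv_eq_of_mul_eq_one_right (by rw [← pow_add]; exact h4)
    rw [sq_inv_eq haa (self hC hpD), pow_two, pow_two] at h
    exact h.symm
  have heq : v0 * v1 * r1 * v2 = v0 * v1 * r1 := by
    rw [← hY, ← hX]
    calc p * (a * (p * (a * v0 * a) * p) * a) * p = (p * a * (p * a)) * v0 * (a * p * (a * p)) := by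
          group
      _ = (a * p * (a * p)) * v0 * (p * a * (p * a)) := by rw [hxy]
      _ = _ := by group
  have hv2 : b * cj g (s₀ * f₀ * f₁) * b = 1 := (hv _ hs₂).trans (mul_eq_left.mp heq)
  refine cj_injective g ?_
  rw [map_one]
  calc cj g (s₀ * f₀ * f₁) = b * (b * cj g (s₀ * f₀ * f₁) * b) * b := by
        rw [show b * (b * cj g (s₀ * f₀ * f₁) * b) * b =
          (b * b) * cj g (s₀ * f₀ * f₁) * (b * b) by group, hbb, one_mul, mul_one]
    _ = 1 := by rw [hv2, mul_one, hbb]

theorem Config.arm_alt (hs : s ∈ twinGroup D d) :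
    arm g (b * a * b) s = arm g a s * s := by
  have F := C.frame
  have htt := self hC F.t_mem
  have haa := self hC C.mem_a.1.1
  set t := (a * b) ^ 2 with ht
  have hta : Commute t a := (local2_sq_commute hC C.mem_a C.mem_b).1
  have hbab : b * a * b = a * t := by
    rw [ht, pow_two, show a * (a * b * (a * b)) = (a * a) * b * a * b by group, haa, one_mul]
  have h1 := arm_conj hC (a := b * a * b) F hs
  have e : (b * a * b) * cj g s * (b * a * b) = cj g s * (arm g a s * s) := by
    rw [hbab]
    conv_lhs => arg 2; rw [← hta.eq]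
    rw [show a * t * cj g s * (t * a) = a * (t * cj g s * t) * a by group, F.phi hC C.deep hs,
      show a * (cj g s * s) * a = a * cj g s * (s * a) by group,
      ← (core2_commute_twinGroup hC F.d_mem hs (Subgroup.subset_closure C.mem_a)).eq,
      show a * cj g s * (a * s) = a * cj g s * a * s by group, arm_conj hC F hs, mul_assoc]
  exact mul_left_cancel (h1.symm.trans e)

theorem Config.alt : Config D d u g (b * a * b) b ∧
    ∀ r ∈ twinGroup D d, (arm g b r * (b * a * b)) ^ 2 = (arm g b r * a) ^ 2 := by
  have F := C.frame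
  have hd := F.d_mem
  have ha := C.mem_a
  have hb := C.mem_b
  have haa := self hC ha.1.1
  have hbb := self hC hb.1.1
  have hbab : b * a * b = a * (a * b) ^ 2 := by
    rw [pow_two, show a * (a * b * (a * b)) = (a * a) * b * a * b by group, haa, one_mul]
  have hleft : ∀ r ∈ twinGroup D d,
      (arm g b r * (b * a * b)) ^ 2 = (arm g b r * a) ^ 2 := by
    intro r hr
    have hfix := (C.symm hC).t_fix hC hr
    rw [local2_sq_comm hC ha hb] at hfix
    have hta : Commute ((a * b) ^ 2) a := (local2_sq_commute hC ha hb).1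
    have htt := self hC F.t_mem
    rw [hbab, pow_two (arm g b r * (a * (a * b) ^ 2)), pow_two (arm g b r * a)]
    set t := (a * b) ^ 2
    calc arm g b r * (a * t) * (arm g b r * (a * t)) =
        arm g b r * a * (t * arm g b r) * (a * t) := by group
      _ = arm g b r * a * (arm g b r * t) * (t * a) := by rw [← hfix.eq, ← hta.eq]
      _ = arm g b r * a * arm g b r * (t * t) * a := by group
      _ = _ := by rw [htt, mul_one]; group
  have ht' : (b * a * b * b) ^ 2 = (a * b) ^ 2 := by
    rw [mul_assoc (b * a), hbb, mul_one, local2_sq_comm hC ha hb]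
  have ha' : b * a * b ∈ local2 D d := by
    have := cj_local2_self hC ha (local2_commute hC hb)
    rwa [cj_apply, inv_self hC.root hb.1.1] at this
  have hright : ∀ s ∈ twinGroup D d,
      (arm g (b * a * b) s * b) ^ 2 = (arm g a s * b) ^ 2 := by
    intro s hs
    have hαα := arm_self_mul hC F ha hs
    have hf := C.right s hs
    have hN : b ∈ core2 D d := Subgroup.subset_closure hb
    have hss := twinGroup_self_mul hC hd hs
    have hsc := core2_commute_twinGroup hC hd hs (arm_core hC F ha hs)
    have hβ : (arm g a s * s) * (arm g a s * s) = 1 := by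
      rw [show arm g a s * s * (arm g a s * s) = arm g a s * (s * arm g a s) * s by group, ← hsc.eq,
        show arm g a s * (arm g a s * s) * s = (arm g a s * arm g a s) * (s * s) by group, hαα, hss,
        one_mul]
    rw [C.arm_alt hC hs]
    have h1 := conj_eq_mul_sq (a := b) hβ
    rw [show b * (arm g a s * s) * b = b * arm g a s * (s * b) by group,
      ← (core2_commute_twinGroup hC hd hs hN).eq,
      show b * arm g a s * (b * s) = b * arm g a s * b * s by group, conj_eq_mul_sq hαα, mul_assoc,
      (twinGroup_commute hC hd hf hs).eq, ← mul_assoc] at h1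
    exact (mul_left_cancel h1).symm
  refine ⟨⟨ha', hb, ?_, ?_, ?_, fun s hs => ?_, fun s hs => ?_, fun s hs => ?_,
    fun s hs r hr => ?_⟩, hleft⟩
  · rw [ht']; exact F
  · rw [ht']; exact C.deep
  · rw [ht']; exact C.not_twin
  · rw [hleft s hs]; exact C.left s hs
  · rw [hright s hs]; exact C.right s hs
  · rw [hleft s hs, hright s hs]; exact C.total s hs
  · rw [C.arm_alt hC hs]
    exact (C.comm s hs r hr).mul_left (core2_commute_twinGroup hC hd hs (arm_core hC F hb hr)).symm

theorem Config.false_of_left (he : ∃ r ∈ twinGroup D d, (arm g b r * a) ^ 2 ≠ 1) : False := by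
  have F := C.frame
  have hd := F.d_mem
  obtain ⟨s, hs, hs1, hcor⟩ : ∃ s ∈ twinGroup D d, s ≠ 1 ∧
      Corrects D d g ((a * b) ^ 2) a s s := by
    have hdU := self_mem_twinGroup hC hd
    obtain ⟨f₀, h₀⟩ := C.exists_corrects hC hdU
    have hs₁ := mul_mem hdU h₀.1
    by_cases h1 : d * f₀ = 1
    · refine ⟨d, hdU, ne_one hC.root hd, ?_⟩
      rwa [show f₀ = d by rw [mul_eq_one_iff_eq_inv, twinGroup_inv hC hd h₀.1] at h1; exact h1.symm]
        at h₀
    obtain ⟨f₁, h₁⟩ := C.exists_corrects hC hs₁
    have := C.flip_eq_one hC he hdU h₀ h₁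
    refine ⟨d * f₀, hs₁, h1, ?_⟩
    rwa [show f₁ = d * f₀ by
      rw [mul_eq_one_iff_eq_inv, twinGroup_inv hC hd h₁.1] at this; exact this.symm] at h₁
  obtain ⟨C', hleft⟩ := C.alt hC
  have hcor' : Corrects D d g ((b * a * b * b) ^ 2) (b * a * b) s 1 := by
    obtain ⟨-, hfix, hct⟩ := hcor
    rw [show (b * a * b * b) ^ 2 = (a * b) ^ 2 by
      rw [mul_assoc (b * a), self hC C.mem_b.1.1, mul_one, local2_sq_comm hC C.mem_a C.mem_b]]
    exact ⟨one_mem _, by rw [mul_one, C.arm_alt hC hs]; exact hfix,
      by rw [mul_one, C.arm_alt hC hs]; exact hct⟩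
  have := C'.flip_eq_one hC (he.imp fun r hr => ⟨hr.1, by rw [hleft r hr.1]; exact hr.2⟩) hs hcor'
    (by rw [mul_one]; exact hcor')
  rw [mul_one, mul_one] at this
  exact hs1 this

theorem Config.absurd : False := by
  by_cases he : ∃ r ∈ twinGroup D d, (arm g b r * a) ^ 2 ≠ 1
  · exact C.false_of_left hC he
  push Not at he
  have hdU := self_mem_twinGroup hC C.frame.d_mem
  refine (C.symm hC).false_of_left hC ⟨d, hdU, fun h => ?_⟩
  have := C.total d hdU
  rw [he d hdU, h, one_mul] at this
  exact ne_one hC.root C.frame.d_mem this.symm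

end CfsgLib.RootInv.Structure52
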