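import Cfsg.Agent.RootInvolutions.Structure52.Base

/-!
A frame: a member `t` with `t u t = u d` and an element of order three permuting `d`, `u`, `u d`.
-/

set_option autoImplicit false

namespace CfsgLib.RootInv.Structure52

open Cfsg CfsgLib.RootInv

variable {G : Type*} [Group G] {D : Set G}

/-- `g` maps `d` to `u` to `u d` and is inverted by `t`. -/
structure Frame (D : Set G) (d u t g : G) : Prop where
  d_mem : d ∈ D
  u_mem : u ∈ D
  t_mem : t ∈ D
  td : Commute t d
  ud : Commute u d
  tut : t * u * t = u * d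
  gd : cj g d = u
  gu : cj g u = u * d
  tgt : t * g * t = g⁻¹
  g_cube : g * g * g = 1

variable (hC : Ctx D) {d u t g x s : G}

include hC

theorem exists_frame [Finite G] (hd : d ∈ D) (ht : t ∈ D) (hu : u ∈ D) (htd : Commute t d)
    (hud : Commute u d) (htu : t * u * t = u * d) : ∃ g, Frame D d u t g := by
  have hD := hC.root
  have hone := hC.one
  have htt := self hC ht
  have hdu : Line D d u := ⟨hd, hu, by rw [← hud.eq, ← htu]; exact conj_self_mem hD ht hu⟩
  have hnc : ¬ Commute t u := fun h => ne_one hD hd (mul_eq_left.mp (htu.symm.trans (by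
    rw [h.eq, mul_assoc, htt, mul_one])))
  have htdD : Line D t d := by
    refine ⟨ht, hd, ?_⟩
    have e : d = u * (t * u * t) := by rw [htu, cancel hD hu]
    rw [htd.eq, e, show u * (t * u * t) * t = u * t * u * (t * t) by group, htt, mul_one]
    exact conj_self_mem hD hu ht
  have hns : ¬ Same D d u := fun h =>
    hnc (commute_of_same hD hone hd hu h ht htd)
  obtain ⟨y, hy, hyu⟩ := exists_oddPartner_diff hD hone hd hu hns
  obtain ⟨p, hp, hp4, hpsq⟩ := exists_preimage hD hdu hy.1 hy.2.1
    (by rw [odd_comm hD hy.1 hd]; exact hy.2.2)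
    ((odd_or_pow_four hD hy.1 hu).resolve_left fun h' =>
      hyu ⟨hy.1, h'.1, by rw [odd_comm hD hu hy.1]; exact h'.2⟩)
  have hpD : p ∈ D := hp.2.1
  have hpp := self hC hpD
  have hpu : Commute p u := (hpsq ▸ commute_sq_right hD hd hpD hp4).symm
  have hpdp : p * d * p = d * u := by
    rw [← hpsq, pow_two, show d * (d * p * (d * p)) = d * d * p * d * p by group, self hC hd,
      one_mul]
  set g := t * p with hg
  have hgi : g⁻¹ = p * t := by rw [hg, mul_inv_rev, inv_self hD hpD, inv_self hD ht]
  have hgd : cj g d = u := by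
    rw [cj_apply, hgi, hg, show t * p * d * (p * t) = t * (p * d * p) * t by group, hpdp,
      show t * (d * u) * t = (t * d) * (u * t) by group, htd.eq,
      show d * t * (u * t) = d * (t * u * t) by group, htu, hud.eq, cancel hD hd]
  have hgu : cj g u = u * d := by
    rw [cj_apply, hgi, hg, show t * p * u * (p * t) = t * (p * u) * p * t by group, hpu.eq,
      show t * (u * p) * p * t = t * u * (p * p) * t by group, hpp, mul_one, htu]
  have hg3 : Commute (g ^ 3) d := by
    refine mul_inv_eq_iff_eq_mul.mp ?_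
    rw [show g ^ 3 * d * (g ^ 3)⁻¹ = cj g (cj g (cj g d)) by
        simp only [cj_apply, pow_succ, pow_zero, one_mul, mul_inv_rev, mul_assoc],
      hgd, hgu, map_mul, hgu, hgd, hud.eq, mul_assoc, self hC hu, mul_one]
  have hnc' : ¬ Commute g d := fun h => hnc (by
    have : u = d := by rw [← hgd, cj_apply, h.eq, mul_inv_cancel_right]
    rw [this]; exact htd)
  have ho : Odd (orderOf g) := by
    rcases odd_or_pow_four hD ht hpD with ⟨-, h⟩ | h
    · exact h
    · exfalso
      apply hnc'
      have : g = (g ^ 3)⁻¹ := eq_inv_of_mul_eq_one_left (by rw [← pow_succ']; exact h)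
      rw [this]
      exact hg3.inv_left
  have hah : t * g ^ 3 = (p * t) * p * (p * t)⁻¹ := by
    rw [mul_inv_rev, inv_self hD hpD, inv_self hD ht, hg, pow_succ, pow_succ, pow_one,
      show t * (t * p * (t * p) * (t * p)) = (t * t) * (p * t * p * (t * p)) by group,
      htt, one_mul]
  have htD : t * g ^ 3 ∈ D := hah ▸ hD.conj_mem p hpD _
  have hta : orderOf (t * g ^ 3 * t) = orderOf (g ^ 3) := by
    calc orderOf (t * g ^ 3 * t) = orderOf (t * g ^ 3 * t⁻¹) := by rw [inv_self hD ht]
      _ = _ := orderOf_injective (MulAut.conj t).toMonoidHom (MulAut.conj t).injective _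
  have h1 : t * g ^ 3 = t := (Line.symm hD htdD).eq_of_commute_of_odd hD htD
    (htd.mul_left hg3) (by rw [hta]; exact ho.of_dvd_nat (orderOf_pow_dvd 3))
  refine ⟨g, hd, hu, ht, htd, hud, htu, hgd, hgu, ?_, ?_⟩
  · rw [hgi, hg, show t * (t * p) * t = (t * t) * p * t by group, htt, one_mul]
  · rw [← pow_two, ← pow_succ]; exact mul_eq_left.mp h1

variable (F : Frame D d u t g)

include F

theorem Frame.line_du : Line D d u :=
  ⟨F.d_mem, F.u_mem, by rw [← F.ud.eq, ← F.tut]; exact conj_self_mem hC.root F.t_mem F.u_mem⟩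

theorem Frame.u_local2 : u ∈ local2 D d :=
  local2_of_line hC (Line.symm hC.root (F.line_du hC))

theorem Frame.not_commute : ¬ Commute t u := fun h =>
  ne_one hC.root F.d_mem (mul_eq_left.mp (F.tut.symm.trans (by
    rw [h.eq, mul_assoc, self hC F.t_mem, mul_one])))

theorem Frame.u_not_twin : u ∉ sameCommutingClass D d := fun h =>
  F.not_commute hC ((twin_commute_iff h F.t_mem).mpr F.td)

theorem Frame.gg_d : cj g (cj g d) = u * d := by rw [F.gd, F.gu]

theorem Frame.g_ud : cj g (u * d) = d := by
  rw [map_mul, F.gu, F.gd, F.ud.eq, mul_assoc, self hC F.u_mem, mul_one]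

omit hC in
theorem Frame.cycle (x : G) : cj g (cj g (cj g x)) = x := by
  rw [cj_cj, cj_cj, F.g_cube, cj_apply, inv_one, one_mul, mul_one]

omit hC in
theorem Frame.cj_inv (x : G) : cj g⁻¹ x = cj g (cj g x) := by
  rw [show g⁻¹ = g * g from inv_eq_of_mul_eq_one_left F.g_cube, cj_cj]

theorem Frame.t_cj (x : G) : t * cj g x * t = cj g (cj g (t * x * t)) := by
  rw [← F.cj_inv, ← F.tgt, cj_apply, cj_apply, mul_inv_rev, mul_inv_rev,
    inv_self hC.root F.t_mem]
  calc t * (g * x * g⁻¹) * t = t * g * ((t * t) * x * (t * t)) * (g⁻¹ * t) := by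
        rw [self hC F.t_mem]; group
    _ = _ := by group

theorem Frame.t_twin (hs : s ∈ twinGroup D d) : t * s * t = s := by
  rw [(commute_twinGroup hC F.d_mem hs F.t_mem F.td).eq, mul_assoc, self hC F.t_mem, mul_one]

theorem Frame.gs_twinGroup (hs : s ∈ twinGroup D d) : cj g s ∈ twinGroup D u :=
  F.gd ▸ cj_twinGroup hC F.d_mem hs g

theorem Frame.gs_core [Finite G] (hs : s ∈ twinGroup D d) : cj g s ∈ core2 D d := by
  rcases (mem_twinGroup hC F.u_mem).mp (F.gs_twinGroup hC hs) with h | h
  · exact Subgroup.subset_closure (local2_twin hC F.d_mem (F.u_local2 hC) h)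
  · rw [h]; exact one_mem _

theorem Frame.gs_local2 [Finite G] (hs : s ∈ twinGroup D d) (h1 : s ≠ 1) :
    cj g s ∈ local2 D d :=
  local2_twin hC F.d_mem (F.u_local2 hC) (twin_of_mem hC F.u_mem (F.gs_twinGroup hC hs)
    fun h => h1 (cj_injective g (h.trans (map_one _).symm)))

theorem Frame.gs_twin (hs : s ∈ twinGroup D d) (h1 : s ≠ 1) :
    cj g s ∈ sameCommutingClass D u :=
  twin_of_mem hC F.u_mem (F.gs_twinGroup hC hs)
    fun h => h1 (cj_injective g (h.trans (map_one _).symm))

theorem Frame.fixed_eq_one (hs : s ∈ twinGroup D d) (hfix : cj g s = s) : s = 1 :=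
  twinGroup_disjoint hC F.d_mem F.u_mem (F.u_not_twin hC) hs (hfix ▸ F.gs_twinGroup hC hs)

/-- A member centralised by `t` on a line with a twin of `u`: its image is isolated. -/
theorem Frame.cj_local2 [Finite G] (hs : s ∈ twinGroup D d) (h1 : s ≠ 1)
    (hphi : t * cj g s * t = cj g s * s) (hx : x ∈ D) (hxt : Commute x t)
    (hl : x * cj g s ∈ D) : cj g x ∈ local2 D d := by
  have e1 : t * (x * cj g s) * t = x * (cj g s * s) := by
    rw [← hphi, show t * (x * cj g s) * t = (t * x) * (cj g s * t) by group, ← hxt.eq]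
    group
  have hm : x * (cj g s * s) ∈ D := e1 ▸ conj_self_mem hC.root F.t_mem hl
  have hgg : cj g s * s = cj g (cj g s) := by rw [← hphi, F.t_cj hC, F.t_twin hC hs]
  have hl' : Line D (cj g x) s := by
    refine ⟨hC.root.conj_mem x hx g, (twin_of_mem hC F.d_mem hs h1).1, ?_⟩
    have := hC.root.conj_mem _ hm g
    rwa [hgg, ← cj_apply, map_mul, F.cycle] at this
  have := local2_of_line hC hl'
  rwa [local2_eq_of_twin (twin_of_mem hC F.d_mem hs h1)] at this

variable [Finite G] (hdeep : ∀ w ∈ local2 D d, (w * t) ^ 2 ∈ twinGroup D d)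

include hdeep

theorem Frame.phi (hs : s ∈ twinGroup D d) : t * cj g s * t = cj g s * s := by
  rcases eq_or_ne s 1 with rfl | h1
  · rw [map_one, mul_one, mul_one, self hC F.t_mem]
  have hgs := F.gs_local2 hC hs h1
  have hgss := self hC hgs.1.1
  have hf := hdeep _ hgs
  set f := (cj g s * t) ^ 2 with hfdef
  have e1 : t * cj g s * t = cj g s * f := conj_eq_mul_sq hgss
  have e2 : cj g (cj g s) = cj g s * f := by rw [← e1, F.t_cj hC, F.t_twin hC hs]
  have e3 : s = cj g s * f * cj g f := by
    conv_lhs => rw [← F.cycle s, e2, map_mul, e2]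
  have hff := twinGroup_self_mul hC F.d_mem hf
  have hfc : Commute f (cj g f) :=
    (core2_commute_twinGroup hC F.d_mem hf (F.gs_core hC hf)).symm
  have e4 : cj g (s * f) = s * f := by
    rw [map_mul]
    conv_rhs => rw [e3]
    rw [show cj g s * f * cj g f * f = cj g s * (f * cj g f) * f by group, hfc.eq,
      show cj g s * (cj g f * f) * f = cj g s * cj g f * (f * f) by group, hff, mul_one]
  have e5 : f = s := by
    have := F.fixed_eq_one hC (mul_mem hs hf) e4
    rw [mul_eq_one_iff_eq_inv, twinGroup_inv hC F.d_mem hf] at this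
    exact this.symm
  rw [e1, e5]

theorem Frame.fix (hxt : Commute x t) (hgx : cj g x ∈ local2 D d) :
    ∃ f ∈ twinGroup D d, cj g (x * f) = x * f ∧ Commute (x * f) t := by
  have hf := hdeep _ hgx
  set f := (cj g x * t) ^ 2 with hfdef
  refine ⟨f, hf, ?_, hxt.mul_left (commute_twinGroup hC F.d_mem hf F.t_mem F.td).symm⟩
  have e1 : t * cj g x * t = cj g x * f := conj_eq_mul_sq (self hC hgx.1.1)
  have e2 : cj g (cj g x) = cj g x * f := by
    rw [← e1, F.t_cj hC, ← hxt.eq, mul_assoc, self hC F.t_mem, mul_one]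
  have e3 : x = cj g x * f * cj g f := by
    conv_lhs => rw [← F.cycle x, e2, map_mul, e2]
  have hfc : Commute f (cj g f) :=
    (core2_commute_twinGroup hC F.d_mem hf (F.gs_core hC hf)).symm
  have hff := twinGroup_self_mul hC F.d_mem hf
  rw [map_mul]
  conv_rhs => rw [e3]
  rw [show cj g x * f * cj g f * f = cj g x * (f * cj g f) * f by group, hfc.eq,
    show cj g x * (cj g f * f) * f = cj g x * cj g f * (f * f) by group, hff, mul_one]

end CfsgLib.RootInv.Structure52
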