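import Cfsg.Agent.RootInvolutions.Structure52.Count
import Cfsg.Agent.RootInvolutions.Generation52

/-!
The structure of the group generated by the isolated members commuting with a root involution:
its commutator subgroup consists of the twins, and the isolated members are the members on lines.
-/

set_option autoImplicit false

namespace CfsgLib.RootInv.Structure52

open Cfsg CfsgLib.RootInv
open scoped commutatorElement

variable {G : Type*} [Group G] {D : Set G} [Finite G] (hC : Ctx D) {d a b w : G}

include hC

/-- Class two. -/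
theorem sq_mem_twinGroup (hd : d ∈ D) (ha : a ∈ local2 D d) (hb : b ∈ local2 D d) :
    (b * a) ^ 2 ∈ twinGroup D d := by
  obtain ⟨K, hK⟩ := exists_bound (d := d) hC
  suffices h : ∀ m j x, K ≤ j + m → x ∈ local2 D d → AtDepth D d j x → AllDeep D d x from
    h K 0 a (by omega) ha (depth_zero hC (Subgroup.subset_closure ha)) b hb
  clear ha hb
  intro m
  induction m with
  | zero =>
    intro j x hj hx hjx w hw
    rw [sq_eq_one_of_commute (self hC hw.1.1) (self hC hx.1.1)
      (core2_commute_twinGroup hC hd (hK j hj x hjx) (Subgroup.subset_closure hw))]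
    exact one_mem _
  | succ m ih =>
    intro j x hj hx hjx w hw
    by_contra hU
    have hA : ∀ v ∈ local2 D d, AllDeep D d ((v * x) ^ 2) := by
      intro v hv
      rcases sq_local2 hC hv hx with h | h
      · intro z hz
        rw [h, mul_one, pow_two, self hC hz.1.1]
        exact one_mem _
      · refine ih (j + 1) _ (by omega) h ?_
        rw [local2_sq_comm hC hx hv]
        exact depth_sq hC hd hjx hx.1.1 hv
    obtain ⟨d', u, g, hd', C⟩ := config_of_deep hC hd hx hw hA
      fun h => hU (local2_sq_comm hC hx hw ▸ h)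
    exact C.absurd hC

/-- A member moving `w` yields every twin of `d` as a square. -/
theorem exists_sq_eq (hd : d ∈ D) (hw : w ∈ local2 D d) (hb : b ∈ local2 D d)
    (hwb : ¬ Commute b w) {s : G} (hs : s ∈ twinGroup D d) (h1 : s ≠ 1) :
    ∃ c ∈ local2 D d, ¬ Commute c w ∧ (w * c) ^ 2 = s := by
  obtain ⟨g, hg⟩ := exists_correction hC hd hb hw (fun v hv => sq_mem_twinGroup hC hd hw hv) hwb
  obtain ⟨hgU, -, hgp⟩ := hg s hs
  have hcW : cj g s ∈ local2 D d := local2_twin hC hd hb
    (twin_of_mem hC hb.1.1 hgU fun h => h1 (cj_injective g (h.trans (map_one _).symm)))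
  refine ⟨_, hcW, fun h => h1 ?_, ?_⟩
  · exact mul_eq_left.mp (hgp.symm.trans (by rw [← h.eq, mul_assoc, self hC hw.1.1, mul_one]))
  · rw [pow_two, show w * cj g s * (w * cj g s) = w * cj g s * w * cj g s by group, hgp,
      mul_assoc, ← (core2_commute_twinGroup hC hd hs (Subgroup.subset_closure hcW)).eq, ← mul_assoc,
      self hC hcW.1.1, one_mul]

theorem exists_mover (hd : d ∈ D) (hw : w ∈ local2 D d) (h : w ∉ sameCommutingClass D d) :
    ∃ b ∈ local2 D d, ¬ Commute b w := by
  by_contra hcon
  push Not at hcon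
  exact h (twin_of_central hC hd hw fun v hv => (hcon v hv).symm)

/-- The isolated members are `d` and the members on lines with `d`. -/
theorem local2_eq (hd : d ∈ D) : local2 D d = productPartners D d ∪ {d} := by
  ext w
  constructor
  · intro hw
    rcases eq_or_ne w d with rfl | hne
    · exact Or.inr rfl
    refine Or.inl ⟨⟨hw.1.1, hw.1.2, hne⟩, ?_⟩
    by_cases hE : w ∈ sameCommutingClass D d
    · have := mul_mem (Subgroup.subset_closure hE : w ∈ twinGroup D d) (self_mem_twinGroup hC hd)
      refine (twin_of_mem hC hd this fun h => hne ?_).1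
      rwa [mul_eq_one_iff_eq_inv, inv_self hC.root hd] at h
    obtain ⟨b, hb, hbw⟩ := exists_mover hC hd hw hE
    obtain ⟨c, hc, -, hsq⟩ :=
      exists_sq_eq hC hd hw hb hbw (self_mem_twinGroup hC hd) (ne_one hC.root hd)
    have e : w * d = c * w * c := by
      rw [← hsq, pow_two, show w * (w * c * (w * c)) = (w * w) * (c * w * c) by group,
        self hC hw.1.1, one_mul]
    rw [e]
    exact conj_self_mem hC.root hc.1.1 hw.1.1
  · rintro (⟨⟨hwD, hwd, -⟩, hl⟩ | rfl)
    · exact local2_of_line hC ⟨hwD, hd, hl⟩
    · exact twin_mem_local2 hC hd ⟨hd, rfl⟩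

/-- The commutator subgroup is the group of twins. -/
theorem commutator_eq (hd : d ∈ D) (hne : ∃ w ∈ local2 D d, w ∉ sameCommutingClass D d) :
    ⁅core2 D d, core2 D d⁆ = twinGroup D d := by
  refine le_antisymm ?_ ?_
  · refine Subgroup.commutator_le.mpr fun x hx z hz => ?_
    have hU : ∀ {p q}, p ∈ core2 D d → q ∈ twinGroup D d → p * q * p⁻¹ = q := fun hp hq => by
      rw [(core2_commute_twinGroup hC hd hq hp).eq, mul_inv_cancel_right]
    have step : ∀ p ∈ local2 D d, ∀ z ∈ core2 D d, ⁅p, z⁆ ∈ twinGroup D d := by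
      intro p hp z hz
      induction hz using Subgroup.closure_induction with
      | mem q hq =>
        have := sq_mem_twinGroup hC hd hq hp
        rwa [pow_two, show p * q * (p * q) = p * q * p * q by group,
          show p * q * p * q = p * q * p⁻¹ * q⁻¹ by
            rw [inv_self hC.root hp.1.1, inv_self hC.root hq.1.1],
          ← commutatorElement_def] at this
      | one => rw [commutatorElement_one_right]; exact one_mem _
      | mul q r hq _ h1 h2 =>
        rw [show ⁅p, q * r⁆ = ⁅p, q⁆ * (q * ⁅p, r⁆ * q⁻¹) by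
          simp only [commutatorElement_def]; group, hU hq h2]
        exact mul_mem h1 h2
      | inv q hq h1 =>
        rw [show ⁅p, q⁻¹⁆ = q⁻¹ * ⁅p, q⁆⁻¹ * q⁻¹⁻¹ by simp only [commutatorElement_def]; group,
          hU (inv_mem hq) (inv_mem h1)]
        exact inv_mem h1
    induction hx using Subgroup.closure_induction with
    | mem p hp => exact step p hp z hz
    | one => rw [commutatorElement_one_left]; exact one_mem _
    | mul p q hp _ h1 h2 =>
      rw [show ⁅p * q, z⁆ = (p * ⁅q, z⁆ * p⁻¹) * ⁅p, z⁆ by
        simp only [commutatorElement_def]; group, hU hp h2]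
      exact mul_mem h2 h1
    | inv p hp h1 =>
      rw [show ⁅p⁻¹, z⁆ = p⁻¹ * ⁅p, z⁆⁻¹ * p⁻¹⁻¹ by simp only [commutatorElement_def]; group,
        hU (inv_mem hp) (inv_mem h1)]
      exact inv_mem h1
  · obtain ⟨w, hw, hwE⟩ := hne
    obtain ⟨b, hb, hbw⟩ := exists_mover hC hd hw hwE
    intro s hs
    rcases eq_or_ne s 1 with rfl | h1
    · exact one_mem _
    obtain ⟨c, hc, -, rfl⟩ := exists_sq_eq hC hd hw hb hbw hs h1
    rw [pow_two, show w * c * (w * c) = w * c * w⁻¹ * c⁻¹ by
      rw [inv_self hC.root hw.1.1, inv_self hC.root hc.1.1]; group, ← commutatorElement_def]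
    exact Subgroup.commutator_mem_commutator (Subgroup.subset_closure hw)
      (Subgroup.subset_closure hc)

/-- The isolated members central in their group are the twins. -/
theorem twins_eq_central (hd : d ∈ D) : sameCommutingClass D d =
    {e | e ∈ D ∧ e ∈ core2 D d ∧ ∀ y ∈ core2 D d, e * y = y * e} := by
  ext e
  constructor
  · intro he
    have heU : e ∈ twinGroup D d := Subgroup.subset_closure he
    exact ⟨he.1, twinGroup_le_core2 hC hd heU,
      fun y hy => (core2_commute_twinGroup hC hd heU hy).eq.symm⟩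
  · rintro ⟨heD, heN, hcen⟩
    exact twin_of_central hC hd (mem_local2_of_core2 hC heD heN)
      fun v hv => hcen v (Subgroup.subset_closure hv)

theorem exists_non_twin (hp : a ∈ D) (hq : b ∈ D) (h4 : orderOf (a * b) = 4) (hd : d ∈ D) :
    ∃ w ∈ local2 D d, w ∉ sameCommutingClass D d := by
  have hnc : ¬ Commute a b := fun h => by
    have := orderOf_dvd_of_pow_eq_one ((commute_iff hC.root hp hq).mp h)
    rw [h4] at this
    omega
  have hp4 : (a * b) ^ 4 = 1 := by rw [← h4, pow_orderOf_eq_one]
  obtain ⟨hl, -⟩ := line_sq hC.root hp hq hnc hp4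
  set z := (a * b) ^ 2
  obtain ⟨g, rfl⟩ := hC.one a hp d hd
  have hzc : Commute z b := commute_sq_right hC.root hp hq hp4
  refine ⟨cj g z, local2_of_line hC ⟨hC.root.conj_mem _ hl.2.1 g, hd, ?_⟩, fun h => hnc ?_⟩
  · have := hC.root.conj_mem _ (Line.symm hC.root hl).2.2 g
    rwa [← cj_apply, map_mul] at this
  · have h1 := (twin_commute_iff h (hC.root.conj_mem b hq g)).mp (hzc.symm.map (cj g))
    exact (Commute.of_map (cj_injective g) h1).symm

end CfsgLib.RootInv.Structure52
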