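import Cfsg.Agent.RootInvolutions.Structure52.TwinDeep

/-!
When all squares of `t = (ab)^2` are twins of `d`, a member moving `t` moves `a` by a non-twin.
-/

set_option autoImplicit false

namespace CfsgLib.RootInv.Structure52

open Cfsg CfsgLib.RootInv

variable {G : Type*} [Group G] {D : Set G} [Finite G] (hC : Ctx D) {d a b u : G}

include hC

theorem no_fix (hd : d ∈ D) (ha : a ∈ local2 D d) (hb : b ∈ local2 D d)
    (hdeep : AllDeep D d ((a * b) ^ 2)) (htU : (a * b) ^ 2 ∉ twinGroup D d)
    (hu : u ∈ local2 D d) (hut : ¬ Commute u ((a * b) ^ 2)) :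
    (u * a) ^ 2 ∉ twinGroup D d := by
  intro hua
  have ht : (a * b) ^ 2 ∈ local2 D d :=
    (sq_local2 hC ha hb).resolve_left fun h => htU (h ▸ one_mem _)
  obtain ⟨d', g, -, hd', F, hdp⟩ := mover_frame hC hd hu ht hdeep hut
  -- work at the twin `d'`
  have hd'D := hd'.1
  rw [← local2_eq_of_twin hd'] at ha hb hu ht
  rw [← twinGroup_eq_of_twin hd'] at hua htU
  obtain ⟨hta, htb⟩ := local2_sq_commute hC ha hb
  set t := (a * b) ^ 2 with htdef
  have htt := self hC ht.1.1
  have haa := self hC ha.1.1
  have hbb := self hC hb.1.1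
  have huu := self hC hu.1.1
  set ε := (u * a) ^ 2 with hεdef
  have hεε := twinGroup_self_mul hC hd'D hua
  have hεc : ∀ {n}, n ∈ core2 D d' → Commute n ε :=
    fun hn => core2_commute_twinGroup hC hd'D hua hn
  have haN : a ∈ core2 D d' := Subgroup.subset_closure ha
  have hbN : b ∈ core2 D d' := Subgroup.subset_closure hb
  have huN : u ∈ core2 D d' := Subgroup.subset_closure hu
  have hua' : a * u * a = u * ε := conj_eq_mul_sq huu
  set w := (u * b) ^ 2 with hwdef
  have hub : b * u * b = u * w := conj_eq_mul_sq huu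
  obtain ⟨hwu, hwb⟩ := local2_sq_commute hC hu hb
  rw [← hwdef] at hwu hwb
  have hwN : w ∈ core2 D d' := pow_mem (mul_mem huN hbN) 2
  have hww : w * w = 1 := by
    rw [hwdef, ← pow_add]; exact local2_pow_four hC hb hu.1.1 (local2_commute hC hu)
  set e1 := (w * a) ^ 2 with he1def
  have haw : a * w * a = w * e1 := conj_eq_mul_sq hww
  have htba : t = b * a * b * a := by
    rw [htdef, ← local2_sq_comm hC ha hb, pow_two]; group
  have htab : t = a * b * a * b := by rw [htdef, pow_two]; group
  have key : d' = a * b * e1 * b * a := by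
    have hwe : Commute e1 w := by
      rcases sq_local2 hC hu hb with h | h
      · rw [show w = 1 from h]; exact Commute.one_right e1
      · exact (local2_sq_commute hC h ha).1
    have h : t * u * t = u * (a * b * e1 * b * a) := by
      have s1 : t * u * t = a * (b * (a * (b * u * b) * a) * b) * a := by
        conv_lhs => arg 1; arg 1; rw [htab]
        conv_lhs => arg 2; rw [htba]
        group
      rw [s1, hub, show a * (u * w) * a = (a * u * a) * (a⁻¹ * w * a) by group,
        inv_eq_of_mul_eq_one_right haa, hua', haw,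
        show b * (u * ε * (w * e1)) * b = (b * u * b) * (b⁻¹ * (ε * (w * e1)) * b) by group,
        inv_eq_of_mul_eq_one_right hbb, hub,
        show b * (ε * (w * e1)) * b = (b * ε) * w * (e1 * b) by group, (hεc hbN).eq,
        show ε * b * w * (e1 * b) = ε * (b * w) * (e1 * b) by group, ← hwb.eq,
        show u * w * (ε * (w * b) * (e1 * b)) = u * (w * ε) * w * (b * e1 * b) by group,
        (hεc hwN).eq,
        show u * (ε * w) * w * (b * e1 * b) = u * ε * (w * w) * (b * e1 * b) by group, hww, mul_one,
        show a * (u * ε * (b * e1 * b)) * a = (a * u) * ε * (b * e1 * b) * a by group,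
        show a * u = a * u * (a * a) by rw [haa, mul_one],
        show a * u * (a * a) * ε * (b * e1 * b) * a = (a * u * a) * (a * ε) * (b * e1 * b) * a by
          group, hua', (hεc haN).eq,
        show u * ε * (ε * a) * (b * e1 * b) * a = u * (ε * ε) * a * (b * e1 * b) * a by group,
        hεε, mul_one]
      group
    rw [F.tut] at h
    exact mul_left_cancel h
  have hd'c : ∀ n, n ∈ core2 D d' → Commute n d' := fun _ hn => core2_commute hC hn
  have he1 : e1 = d' := by
    have h : b * (a * d' * a) * b = e1 := by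
      rw [key, show a * (a * b * e1 * b * a) * a = (a * a) * b * e1 * b * (a * a) by group, haa,
        one_mul, mul_one, show b * (b * e1 * b) * b = (b * b) * e1 * (b * b) by group, hbb, one_mul,
        mul_one]
    rw [(hd'c a haN).eq, mul_assoc d' a, haa, mul_one, (hd'c b hbN).eq, mul_assoc, hbb, mul_one] at h
    exact h.symm
  have hw1 : w ≠ 1 := fun h => ne_one hC.root hd'D (by
    rw [← he1, he1def, h, one_mul, pow_two, haa])
  have hwW : w ∈ local2 D d' := (sq_local2 hC hu hb).resolve_left hw1
  rw [he1] at haw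
  have htw : Commute w t := by
    have : t * w * t = w := by
      conv_lhs => arg 1; arg 1; rw [htab]
      conv_lhs => arg 2; rw [htba]
      rw [show a * b * a * b * w * (b * a * b * a) = a * (b * (a * (b * w * b) * a) * b) * a by group,
        ← hwb.eq, mul_assoc w b, hbb, mul_one, haw,
        show b * (w * d') * b = (b * w) * (d' * b) by group, ← hwb.eq, ← (hd'c b hbN).eq,
        show w * b * (b * d') = w * (b * b) * d' by group, hbb, mul_one,
        show a * (w * d') * a = a * w * (d' * a) by group, ← (hd'c a haN).eq,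
        show a * w * (a * d') = a * w * a * d' by group, haw, mul_assoc, self hC hd'D, mul_one]
    show w * t = t * w
    conv_lhs => rw [← this, mul_assoc, htt, mul_one]
  have hgw : cj g w ∈ local2 D d' := by
    refine F.cj_local2 hC (self_mem_twinGroup hC hd'D) (ne_one hC.root hd'D)
      (F.phi hC hdp (self_mem_twinGroup hC hd'D)) hwW.1.1 htw ?_
    rw [F.gd, hwu.eq, ← hub]
    exact conj_self_mem hC.root hb.1.1 hu.1.1
  obtain ⟨f, hf, hfix, -⟩ := F.fix hC hdp htw hgw
  -- an element acting on `t` as `a` does on `u`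
  obtain ⟨h, H⟩ := exists_frame hC hd'D hu.1.1 ht.1.1 F.ud F.td (by
    rw [show t * d' = t * (u * t * u * t) from ?_, show t * (u * t * u * t) = (t * u * t) * (u * t) by
      group, F.tut, show u * d' * (u * t) = u * (d' * u) * t by group, ← F.ud.eq,
      ← mul_assoc u u, huu, one_mul, (local2_commute hC ht).symm.eq]
    · have : u * t * u = t * d' := by
        rw [← mul_left_cancel_iff (a := t), show t * (u * t * u) = t * u * t * u by group, F.tut,
          ← mul_assoc t t, htt, one_mul, F.ud.eq, mul_assoc, huu, mul_one]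
      exact this
    · rw [show u * t * u * t = u * (t * u * t) by group, F.tut, ← mul_assoc u u, huu, one_mul])
  have hsig : ∀ s ∈ twinGroup D d', (cj h s * u) ^ 2 ∈ twinGroup D d' := by
    intro s hs
    rcases eq_or_ne s 1 with rfl | h1
    · rw [map_one, one_mul, pow_two, huu]; exact one_mem _
    · exact sq_mem_comm huu (self hC (H.gs_twin hC hs h1).1)
        (twin_deep hC hd'D ht hdp htU (H.gs_twin hC hs h1) u hu)
  have hhN : ∀ s ∈ twinGroup D d', cj h s ∈ core2 D d' := fun s hs => H.gs_core hC hs
  have hh2 : ∀ s ∈ twinGroup D d', cj h s * cj h s = 1 := fun s hs => by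
    rw [← map_mul, twinGroup_self_mul hC hd'D hs, map_one]
  have hmove : ∀ s ∈ twinGroup D d', u * cj h s * u = cj h s * (cj h s * u) ^ 2 :=
    fun s hs => conj_eq_mul_sq (hh2 s hs)
  have hhom : ∀ p ∈ twinGroup D d', ∀ q ∈ twinGroup D d',
      (cj h (p * q) * u) ^ 2 = (cj h p * u) ^ 2 * (cj h q * u) ^ 2 := by
    intro p hp q hq
    have h1 := hmove _ (mul_mem hp hq)
    have h2 : u * cj h (p * q) * u = cj h (p * q) * ((cj h p * u) ^ 2 * (cj h q * u) ^ 2) := by
      rw [map_mul, show u * (cj h p * cj h q) * u = (u * cj h p) * (1 * cj h q * u) by group, ← huu,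
        show (u * cj h p) * (u * u * cj h q * u) = (u * cj h p * u) * (u * cj h q * u) by group,
        hmove p hp, hmove q hq,
        show cj h p * (cj h p * u) ^ 2 * (cj h q * (cj h q * u) ^ 2) =
          cj h p * ((cj h p * u) ^ 2 * cj h q) * (cj h q * u) ^ 2 by group,
        ← (core2_commute_twinGroup hC hd'D (hsig p hp) (hhN q hq)).eq]
      group
    exact mul_left_cancel (h1.symm.trans h2)
  have hinj : Function.Injective
      fun s : twinGroup D d' => (⟨(cj h s * u) ^ 2, hsig _ s.2⟩ : twinGroup D d') := by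
    intro p q hpq
    have hpq' : (cj h p * u) ^ 2 = (cj h q * u) ^ 2 := congrArg Subtype.val hpq
    have h1 : (cj h (p * q : G) * u) ^ 2 = 1 := by
      rw [hhom _ p.2 _ q.2, hpq', twinGroup_self_mul hC hd'D (hsig _ q.2)]
    have : (p : G) * q = 1 := by
      by_contra hne
      have hT := H.gs_twin hC (mul_mem p.2 q.2) hne
      have hc := commute_of_sq_eq_one (self hC hT.1) huu h1
      exact F.not_commute hC ((twin_commute_iff hT hu.1.1).mp hc.symm).symm
    rw [mul_eq_one_iff_eq_inv, twinGroup_inv hC hd'D q.2] at this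
    exact Subtype.ext this
  obtain ⟨⟨s, hs⟩, hsε⟩ := (Finite.injective_iff_surjective.mp hinj) ⟨ε, hua⟩
  replace hsε : (cj h s * u) ^ 2 = ε := congrArg Subtype.val hsε
  set τ := cj h s with hτdef
  have hτN : τ ∈ core2 D d' := hhN s hs
  have hττ : τ * τ = 1 := hh2 s hs
  have hτu : τ * u * τ = u * ε := by
    rw [conj_eq_mul_sq huu (a := τ), ← hsε, ← sq_inv_eq hττ huu, hsε,
      twinGroup_inv hC hd'D hua]
  set n := a * τ with hn
  have hnN : n ∈ core2 D d' := mul_mem haN hτN
  have hni : n⁻¹ = τ * a := by
    rw [hn, mul_inv_rev, inv_eq_of_mul_eq_one_right hττ, inv_eq_of_mul_eq_one_right haa]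
  have hnu : cj n u = u := by
    rw [cj_apply, hni, hn, show a * τ * u * (τ * a) = a * (τ * u * τ) * a by group, hτu,
      show a * (u * ε) * a = (a * u) * (ε * a) by group, ← (hεc haN).eq,
      show a * u * (a * ε) = a * u * a * ε by group, hua', mul_assoc, hεε, mul_one]
  have hτw : Commute τ w :=
    (commute_twinGroup hC ht.1.1 (H.gs_twinGroup hC hs) hwW.1.1 htw).symm
  have hnw : cj n (w * f) = w * f * d' := by
    rw [map_mul, cj_apply, cj_apply, hni, hn,
      show a * τ * w * (τ * a) = a * (τ * w) * τ * a by group, hτw.eq,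
      show a * (w * τ) * τ * a = a * w * (τ * τ) * a by group, hττ, mul_one, haw, ← hn, ← hni,
      (core2_commute_twinGroup hC hd'D hf hnN).eq, mul_inv_cancel_right, mul_assoc,
      (twinGroup_commute hC hd'D (self_mem_twinGroup hC hd'D) hf).eq, ← mul_assoc]
  have hF1 : Commute (cj g n) d' := by
    have h1 := ((hd'c n hnN)).map (cj g)
    have h2 : Commute n u := by
      rw [cj_apply] at hnu; exact mul_inv_eq_iff_eq_mul.mp hnu
    have h2' := h2.map (cj g)
    rw [F.gd] at h1
    rw [F.gu] at h2'
    have := h1.mul_right h2'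
    rwa [← mul_assoc, huu, one_mul] at this
  have himg : cj (cj g n) (w * f) = w * f * u := by
    have := congrArg (cj g) hnw
    rw [map_mul (cj g) (w * f), hfix, F.gd] at this
    rw [← this]
    conv_lhs => arg 2; rw [← hfix]
    simp only [cj_apply]; group
  obtain ⟨K, hK⟩ := exists_bound (d := d') hC
  have hall : ∀ k, AtDepth D d' k u := by
    intro k
    induction k with
    | zero => exact depth_zero hC huN
    | succ k ih =>
      have h1 : AtDepth D d' (k + 1) (w * f) :=
        depth_mul_twin (depth_sq hC hd'D ih hu.1.1 hb) hf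
      have h2 := depth_cj hC hd'D hF1 h1
      rw [himg] at h2
      have := depth_mul hC hd'D (depth_inv hC hd'D h1) h2
      rwa [inv_mul_cancel_left] at this
  exact F.not_commute hC (commute_twinGroup hC hd'D (hK K le_rfl u (hall K)) ht.1.1
    (local2_commute hC ht))

end CfsgLib.RootInv.Structure52
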