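import Cfsg.Agent.RootInvolutions.Structure52.Frame

/-!
The twins of an isolated member all whose squares are twins of `d` have the same property.
-/

set_option autoImplicit false

namespace CfsgLib.RootInv.Structure52

open Cfsg CfsgLib.RootInv

variable {G : Type*} [Group G] {D : Set G}

/-- All squares of `x` with isolated members are twins of `d`. -/
def AllDeep (D : Set G) (d x : G) : Prop := ∀ w ∈ local2 D d, (w * x) ^ 2 ∈ twinGroup D d

variable (hC : Ctx D) {d t u v x h s : G}

include hC

theorem allDeep_twin {d' : G} (hd' : d' ∈ sameCommutingClass D d) (hx : AllDeep D d x) :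
    AllDeep D d' x := by
  intro w hw
  rw [local2_eq_of_twin hd'] at hw
  rw [twinGroup_eq_of_twin hd']
  exact hx w hw

variable [Finite G]

/-- A mover of a deep member gives a frame at a twin of `d`. -/
theorem mover_frame (hd : d ∈ D) (hv : v ∈ local2 D d) (ht : t ∈ local2 D d)
    (hdeep : AllDeep D d t) (hvt : ¬ Commute v t) :
    ∃ d' g, d' = (v * t) ^ 2 ∧ d' ∈ sameCommutingClass D d ∧ Frame D d' v t g ∧
      AllDeep D d' t := by
  have h4 := local2_pow_four hC ht hv.1.1 (local2_commute hC hv)
  have hne : (v * t) ^ 2 ≠ 1 := fun h => hvt ((commute_iff hC.root hv.1.1 ht.1.1).mpr h)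
  have hd' := twin_of_mem hC hd (hdeep v hv) hne
  obtain ⟨g, hg⟩ := exists_frame hC hd'.1 ht.1.1 hv.1.1
    (local2_sq_commute hC hv ht).2.symm (local2_sq_commute hC hv ht).1.symm
    (conj_eq_mul_sq (self hC hv.1.1))
  exact ⟨_, g, rfl, hd', hg, allDeep_twin hC hd' hdeep⟩

/-- The twins of a mover of `t` move it by all twins of `d`. -/
theorem exists_correction (hd : d ∈ D) (hv : v ∈ local2 D d) (ht : t ∈ local2 D d)
    (hdeep : AllDeep D d t) (hvt : ¬ Commute v t) :
    ∃ g : G, ∀ s ∈ twinGroup D d, cj g s ∈ twinGroup D v ∧ cj g s ∈ core2 D d ∧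
      t * cj g s * t = cj g s * s := by
  obtain ⟨d', g, -, hd', F, hdp⟩ := mover_frame hC hd hv ht hdeep hvt
  refine ⟨g, fun s hs => ?_⟩
  rw [← twinGroup_eq_of_twin hd'] at hs
  refine ⟨F.gs_twinGroup hC hs, ?_, F.phi hC hdp hs⟩
  show cj g s ∈ Subgroup.closure (local2 D d)
  rw [← local2_eq_of_twin hd']
  exact F.gs_core hC hs

omit [Finite G] in
theorem bracket_depth (hd : d ∈ D) {k : ℕ} {n : G} (hn : n ∈ core2 D d) (hnt : Commute n t)
    (hnd : Commute (cj h n) d) (hx : ∃ e ∈ twinGroup D d, AtDepth D d k (cj h (x * e))) :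
    AtDepth D d k (cj h (x * n * x⁻¹ * n⁻¹)) := by
  obtain ⟨e, he, hX⟩ := hx
  have e1 : x * n * x⁻¹ * n⁻¹ = x * e * (n * (x * e)⁻¹ * n⁻¹) := by
    have hc := (core2_commute_twinGroup hC hd he hn).eq
    rw [mul_inv_rev, show x * e * (n * (e⁻¹ * x⁻¹) * n⁻¹) = x * (e * n) * e⁻¹ * x⁻¹ * n⁻¹ by group,
      ← hc]
    group
  have e2 : cj h (x * e * (n * (x * e)⁻¹ * n⁻¹)) =
      cj h (x * e) * cj (cj h n) ((cj h (x * e))⁻¹) := by
    simp only [cj_apply]; group
  rw [e1, e2]
  exact depth_mul hC hd hX (depth_cj hC hd hnd (depth_inv hC hd hX))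

theorem descend (hd : d ∈ D) (ht : t ∈ local2 D d) (hdeep : AllDeep D d t)
    (hh : ∀ n, Commute n d → Commute n t → Commute (cj h n) d) (K k : ℕ)
    (hK : ∀ i, K ≤ i → ∀ z, AtDepth D d i z → z ∈ twinGroup D d) :
    ∀ m j x, K ≤ j + m → x ∈ local2 D d → AtDepth D d j x → x ∉ twinGroup D d → Commute x t →
      (∃ v ∈ local2 D d, ¬ Commute v t ∧ Commute x v) →
      (∃ e ∈ twinGroup D d, AtDepth D d k (cj h (x * e))) →
      ∀ s ∈ twinGroup D d, AtDepth D d k (cj h s) := by
  intro m
  induction m with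
  | zero => intro j x hj _ hjx hxU; exact absurd (hK j hj x hjx) hxU
  | succ m ih =>
    rintro j x hj hx hjx hxU hxt ⟨v, hv, hvt, hxv⟩ hHx
    have hxD := hx.1.1
    have hxx := self hC hxD
    have htt := self hC ht.1.1
    obtain ⟨gv, hgv⟩ := exists_correction hC hd hv ht hdeep hvt
    have hgx : ∀ s ∈ twinGroup D d, Commute x (cj gv s) := fun s hs =>
      commute_twinGroup hC hv.1.1 (hgv s hs).1 hxD hxv
    have hgg : ∀ s ∈ twinGroup D d, cj gv s * cj gv s = 1 := fun s hs =>
      twinGroup_self_mul hC hv.1.1 (hgv s hs).1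
    have hstep : ∀ n, n ∈ core2 D d → Commute n t →
        AtDepth D d k (cj h (x * n * x⁻¹ * n⁻¹)) := fun n hn hnt =>
      bracket_depth hC hd hn hnt (hh n (core2_commute hC hn) hnt) hHx
    -- an element commuting with `t` and acting on `x` as `m₀` does
    have hfix : ∀ m₀ ∈ local2 D d, ∃ n ∈ core2 D d, Commute n t ∧
        x * n * x⁻¹ * n⁻¹ = (x * m₀) ^ 2 := by
      intro m₀ hm₀
      have hs' := hdeep m₀ hm₀
      set s' := (m₀ * t) ^ 2 with hs'def
      obtain ⟨-, hgc, hgp⟩ := hgv s' hs'
      refine ⟨m₀ * cj gv s', mul_mem (Subgroup.subset_closure hm₀) hgc, ?_, ?_⟩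
      · have e : t * (m₀ * cj gv s') * t = m₀ * cj gv s' := by
          rw [show t * (m₀ * cj gv s') * t = (t * m₀ * t) * (t⁻¹ * cj gv s' * t) by group,
            inv_self hC.root ht.1.1, hgp, conj_eq_mul_sq (self hC hm₀.1.1),
            show m₀ * s' * (cj gv s' * s') = m₀ * (s' * cj gv s') * s' by group,
            ← (core2_commute_twinGroup hC hd hs' hgc).eq,
            show m₀ * (cj gv s' * s') * s' = m₀ * cj gv s' * (s' * s') by group,
            twinGroup_self_mul hC hd hs', mul_one]
        show m₀ * cj gv s' * t = t * (m₀ * cj gv s')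
        conv_lhs => rw [← e, mul_assoc, htt, mul_one]
      · rw [mul_inv_rev, inv_self hC.root hxD, inv_self hC.root hm₀.1.1,
          inv_eq_of_mul_eq_one_right (hgg s' hs'),
          show x * (m₀ * cj gv s') * x * (cj gv s' * m₀) =
            x * m₀ * (cj gv s' * x) * (cj gv s' * m₀) by group,
          ← (hgx s' hs').eq,
          show x * m₀ * (x * cj gv s') * (cj gv s' * m₀) =
            x * m₀ * x * (cj gv s' * cj gv s') * m₀ by group,
          hgg s' hs', mul_one, pow_two]
        group
    have hnext : ∀ m₀ ∈ local2 D d, (x * m₀) ^ 2 ∉ twinGroup D d →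
        (∃ v' ∈ local2 D d, ¬ Commute v' t ∧ Commute ((x * m₀) ^ 2) v') →
        ∀ s ∈ twinGroup D d, AtDepth D d k (cj h s) := by
      intro m₀ hm₀ hU hv'
      obtain ⟨n, hn, hnt, hne⟩ := hfix m₀ hm₀
      refine ih (j + 1) _ (by omega)
        ((sq_local2 hC hx hm₀).resolve_left fun h' => hU (h' ▸ one_mem _))
        (depth_sq hC hd hjx hxD hm₀) hU ?_ hv' ⟨1, one_mem _, ?_⟩
      · rw [← hne]
        exact ((hxt.mul_left hnt).mul_left hxt.inv_left).mul_left hnt.inv_left
      · rw [mul_one, ← hne]
        exact hstep n hn hnt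
    by_cases hcase : ∃ m₀ ∈ local2 D d, ¬ Commute m₀ t ∧ (x * m₀) ^ 2 ∉ twinGroup D d
    · obtain ⟨m₀, hm₀, hmt, hU⟩ := hcase
      exact hnext m₀ hm₀ hU ⟨m₀, hm₀, hmt, (local2_sq_commute hC hx hm₀).2⟩
    push Not at hcase
    by_cases hxdeep : AllDeep D d x
    · intro s hs
      obtain ⟨m₁, hm₁, hxm₁⟩ : ∃ m₁ ∈ local2 D d, ¬ Commute x m₁ := by
        by_contra hcon
        push Not at hcon
        exact hxU (Subgroup.subset_closure (twin_of_central hC hd hx hcon))
      obtain ⟨gm, hgm⟩ := exists_correction hC hd hm₁ hx hxdeep fun h' => hxm₁ h'.symm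
      obtain ⟨hm', hm'c, hm'p⟩ := hgm s hs
      rcases (mem_twinGroup hC hm₁.1.1).mp hm' with hm'' | hm''
      · have hmW := local2_twin hC hd hm₁ hm''
        obtain ⟨n, hn, hnt, hne⟩ := hfix _ hmW
        have hsq : (x * cj gm s) ^ 2 = s := by
          rw [pow_two, show x * cj gm s * (x * cj gm s) = x * cj gm s * x * cj gm s by group,
            hm'p, show cj gm s * s * cj gm s = cj gm s * (s * cj gm s) by group,
            ← (core2_commute_twinGroup hC hd hs hm'c).eq, ← mul_assoc, self hC hmW.1.1, one_mul]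
        have := hstep n hn hnt
        rwa [hne, hsq] at this
      · have hs1 : s = 1 := cj_injective gm (hm''.trans (map_one _).symm)
        have := hstep 1 (one_mem _) (Commute.one_left t)
        rw [mul_one, mul_inv_cancel, one_mul, inv_one] at this
        rwa [hs1]
    unfold AllDeep at hxdeep
    push Not at hxdeep
    obtain ⟨m₀, hm₀, hU'⟩ := hxdeep
    have hU : (x * m₀) ^ 2 ∉ twinGroup D d := fun h' =>
      hU' (sq_mem_comm hxx (self hC hm₀.1.1) h')
    have hmt : Commute m₀ t := by
      by_contra h'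
      exact hU (hcase m₀ hm₀ h')
    have hmm := self hC hm₀.1.1
    set x' := (x * m₀) ^ 2 with hx'
    have hq : ∀ s ∈ twinGroup D d, ∃ e ∈ twinGroup D d, ∃ q ∈ core2 D d,
        Commute q t ∧ x * q * x⁻¹ * q⁻¹ = e ∧ cj gv s * x' * cj gv s = x' * e := by
      intro s hs
      rcases eq_or_ne s 1 with rfl | h1
      · refine ⟨1, one_mem _, 1, one_mem _, Commute.one_left t, ?_, ?_⟩
        · group
        · rw [map_one, one_mul]
      obtain ⟨hgU, hgc, hgp⟩ := hgv s hs
      set g' := cj gv s with hg'
      have hg'W : g' ∈ local2 D d := local2_twin hC hd hv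
        (twin_of_mem hC hv.1.1 hgU fun h' => h1 (cj_injective gv (h'.trans (map_one _).symm)))
      have hgg' := hgg s hs
      have hss := twinGroup_self_mul hC hd hs
      set v' := m₀ * g' * m₀ with hv'def
      have hv'W : v' ∈ local2 D d := by
        have := cj_local2_self hC hg'W (local2_commute hC hm₀)
        rwa [cj_apply, inv_self hC.root hm₀.1.1] at this
      have hv't : t * v' * t = v' * s := by
        rw [hv'def, show t * (m₀ * g' * m₀) * t = t * m₀ * g' * (m₀ * t) by group, ← hmt.eq,
          show m₀ * t * g' * (m₀ * t) = m₀ * t * g' * (m₀ * t) from rfl, hmt.eq,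
          show t * m₀ * g' * (t * m₀) = (t * m₀) * g' * t * m₀ by group, ← hmt.eq,
          show m₀ * t * g' * t * m₀ = m₀ * (t * g' * t) * m₀ by group, hgp,
          show m₀ * (g' * s) * m₀ = m₀ * g' * (s * m₀) by group,
          ← (core2_commute_twinGroup hC hd hs (Subgroup.subset_closure hm₀)).eq]
        group
      have hv'nc : ¬ Commute v' t := fun h' => h1 (mul_eq_left.mp (hv't.symm.trans (by
        rw [← h'.eq, mul_assoc, htt, mul_one])))
      have he0 : (v' * x) ^ 2 ∈ twinGroup D d :=
        sq_mem_comm hxx (self hC hv'W.1.1) (hcase v' hv'W hv'nc)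
      set e := (v' * x) ^ 2 with hedef
      have he1 : x * v' * x = v' * e := conj_eq_mul_sq (self hC hv'W.1.1)
      have hqe : (m₀ * g') ^ 2 = v' * g' := by rw [hv'def, pow_two]; group
      set q := (m₀ * g') ^ 2 with hqdef
      have hqN : q ∈ core2 D d := pow_mem (mul_mem (Subgroup.subset_closure hm₀) hgc) 2
      have hqx : x * q * x = q * e := by
        rw [hqe, show x * (v' * g') * x = x * v' * (g' * x) by group, ← (hgx s hs).eq,
          show x * v' * (x * g') = x * v' * x * g' by group, he1,
          show v' * e * g' = v' * (e * g') by group,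
          ← (core2_commute_twinGroup hC hd he0 hgc).eq, ← mul_assoc]
      have hqm : Commute q m₀ := (local2_sq_commute hC hm₀ hg'W).1
      have hqq : q * q = 1 := by
        rw [hqdef, ← pow_add]
        exact local2_pow_four hC hg'W hm₀.1.1 (local2_commute hC hm₀)
      refine ⟨e, he0, q, hqN, ?_, ?_, ?_⟩
      · have : t * q * t = q := by
          rw [hqe, show t * (v' * g') * t = (t * v' * t) * (t⁻¹ * g' * t) by group,
            inv_self hC.root ht.1.1, hv't, hgp,
            show v' * s * (g' * s) = v' * (s * g') * s by group,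
            ← (core2_commute_twinGroup hC hd hs hgc).eq,
            show v' * (g' * s) * s = v' * g' * (s * s) by group, hss, mul_one]
        show q * t = t * q
        conv_lhs => rw [← this, mul_assoc, htt, mul_one]
      · rw [inv_self hC.root hxD, hqx, ← (core2_commute_twinGroup hC hd he0 hqN).symm.eq,
          mul_inv_cancel_right]
      · have e2 : g' * m₀ * g' = m₀ * q := by
          rw [hqdef, pow_two, show m₀ * (m₀ * g' * (m₀ * g')) = (m₀ * m₀) * g' * m₀ * g' by group,
            hmm, one_mul]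
        have e3 : g' * x * g' = x := by
          rw [← (hgx s hs).eq, mul_assoc, hgg', mul_one]
        have e4 : g' * x' * g' = x * (m₀ * q) * x * (m₀ * q) := by
          calc g' * x' * g' = (g' * x * g') * (g'⁻¹ * m₀ * g') * (g'⁻¹ * x * g') *
                (g'⁻¹ * m₀ * g') := by rw [hx', pow_two]; group
            _ = _ := by rw [inv_eq_of_mul_eq_one_right hgg', e2, e3]
        calc g' * x' * g' = x * m₀ * x * ((x * x)⁻¹ * (x * q * x)) * m₀ * q := by rw [e4]; group
          _ = x * m₀ * x * (q * e) * m₀ * q := by rw [hxx, inv_one, one_mul, hqx]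
          _ = x * m₀ * x * q * (e * m₀) * q := by group
          _ = x * m₀ * x * q * (m₀ * e) * q := by
              rw [(core2_commute_twinGroup hC hd he0 (Subgroup.subset_closure hm₀)).eq]
          _ = x * m₀ * x * (q * m₀) * (e * q) := by group
          _ = x * m₀ * x * (m₀ * q) * (q * e) := by
              rw [hqm.eq, (core2_commute_twinGroup hC hd he0 hqN).eq]
          _ = x' * (q * q) * e := by rw [hx', pow_two]; group
          _ = x' * e := by rw [hqq, mul_one]
    choose! E hE Q hQ hQt hQx hQe using hq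
    by_cases hker : ∃ s ∈ twinGroup D d, s ≠ 1 ∧ E s = 1
    · obtain ⟨s, hs, h1, hEs⟩ := hker
      obtain ⟨hgU, -, hgp⟩ := hgv s hs
      refine hnext m₀ hm₀ hU ⟨cj gv s, local2_twin hC hd hv
        (twin_of_mem hC hv.1.1 hgU fun h' => h1 (cj_injective gv (h'.trans (map_one _).symm))),
        fun hc => h1 (mul_eq_left.mp (hgp.symm.trans (by rw [← hc.eq, mul_assoc, htt, mul_one]))), ?_⟩
      have := hQe s hs
      rw [hEs, mul_one] at this
      show x' * cj gv s = cj gv s * x'
      conv_lhs => rw [← this, mul_assoc, hgg s hs, mul_one]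
    push Not at hker
    have hhom : ∀ a ∈ twinGroup D d, ∀ b ∈ twinGroup D d, E (a * b) = E a * E b := by
      intro a ha b hb
      have h1 := hQe _ (mul_mem ha hb)
      have hc := twinGroup_commute hC hv.1.1 (hgv a ha).1 (hgv b hb).1
      rw [map_mul] at h1
      conv_lhs at h1 => arg 2; rw [hc.eq]
      rw [show cj gv a * cj gv b * x' * (cj gv b * cj gv a) =
          cj gv a * (cj gv b * x' * cj gv b) * cj gv a by group, hQe b hb,
        show cj gv a * (x' * E b) * cj gv a = cj gv a * x' * (E b * cj gv a) by group,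
        ← (core2_commute_twinGroup hC hd (hE b hb) (hgv a ha).2.1).eq, ← mul_assoc,
        hQe a ha, mul_assoc] at h1
      exact (mul_left_cancel h1).symm
    have hinj : Function.Injective
        fun s : twinGroup D d => (⟨E s, hE _ s.2⟩ : twinGroup D d) := by
      intro a b hab
      have hab' : E a = E b := congrArg Subtype.val hab
      have h1 : E (a * b) = 1 := by
        rw [hhom _ a.2 _ b.2, hab', twinGroup_self_mul hC hd (hE _ b.2)]
      have : (a : G) * b = 1 := by
        by_contra hne
        exact hker _ (mul_mem a.2 b.2) hne h1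
      rw [mul_eq_one_iff_eq_inv, twinGroup_inv hC hd b.2] at this
      exact Subtype.ext this
    intro s hs
    obtain ⟨a, ha⟩ := (Finite.injective_iff_surjective.mp hinj) ⟨s, hs⟩
    have := hstep _ (hQ _ a.2) (hQt _ a.2)
    rwa [hQx _ a.2, show E a = s from congrArg Subtype.val ha] at this

theorem twin_deep_aux {τ : G} (hd : d ∈ D) (ht : t ∈ local2 D d) (hdeep : AllDeep D d t)
    (htU : t ∉ twinGroup D d) (hτ : τ ∈ sameCommutingClass D t)
    (F : Frame D d t u h) (hu : u ∈ local2 D d) : (u * τ) ^ 2 ∈ twinGroup D d := by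
  by_contra hU
  have hτW := local2_twin hC hd ht hτ
  have hU' : (τ * u) ^ 2 ∉ twinGroup D d := fun h' =>
    hU (sq_mem_comm (self hC hτ.1) (self hC hu.1.1) h')
  obtain ⟨K, hK⟩ := exists_bound (d := d) hC
  have hhn : ∀ n, Commute n d → Commute n t → Commute (cj h n) d := by
    intro n h1 h2
    have h1' := h1.map (cj h)
    have h2' := h2.map (cj h)
    rw [F.gd] at h1'
    rw [F.gu] at h2'
    have := h1'.mul_right h2'
    rwa [← mul_assoc, self hC ht.1.1, one_mul] at this
  have hall : ∀ k, ∀ τ' ∈ sameCommutingClass D t, AtDepth D d k τ' := by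
    intro k
    induction k with
    | zero => exact fun τ' hτ' =>
        depth_zero hC (Subgroup.subset_closure (local2_twin hC hd ht hτ'))
    | succ k ih =>
      have hback : ∀ τ' ∈ sameCommutingClass D t, cj h⁻¹ τ' ∈ twinGroup D d := by
        intro τ' hτ'
        have := cj_twin hC hτ' h⁻¹
        rw [show cj h⁻¹ t = d by
          conv_lhs => rw [← F.gd, cj_cj, inv_mul_cancel, cj_apply, one_mul, inv_one, mul_one]] at this
        exact Subgroup.subset_closure this
      have hcjh : ∀ z, cj h (cj h⁻¹ z) = z := fun z => by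
        rw [cj_cj, mul_inv_cancel, cj_apply, one_mul, inv_one, mul_one]
      have hf := hback τ hτ
      set f := cj h⁻¹ τ with hfdef
      have hhf : cj h f = τ := hcjh τ
      have e1 : u * τ * u = cj h (cj h f) := by rw [← hhf, F.t_cj hC, F.t_twin hC hf]
      have e2 : (τ * u) ^ 2 = τ * cj h (cj h f) := by rw [← e1, pow_two]; group
      have htdD : t * d ∈ D := F.tut ▸ conj_self_mem hC.root F.t_mem F.u_mem
      have hc1 : Commute τ (cj h (cj h f)) := by
        refine twinGroup_commute_of_commute hC ht.1.1 htdD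
          ((Commute.refl t).mul_right (local2_commute hC ht)) ?_ ?_
        · exact Subgroup.subset_closure hτ
        · have := cj_twinGroup hC ht.1.1 (hhf ▸ Subgroup.subset_closure hτ :
            cj h f ∈ twinGroup D t) h
          rwa [F.gu] at this
      have hc2 : Commute τ f :=
        core2_commute_twinGroup hC hd hf (Subgroup.subset_closure hτW)
      have hc3 : Commute (cj h (cj h f)) f := by
        rw [← e1]
        exact core2_commute_twinGroup hC hd hf (mul_mem (mul_mem (Subgroup.subset_closure hu)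
          (Subgroup.subset_closure hτW)) (Subgroup.subset_closure hu))
      have hπ : cj h ((τ * u) ^ 2 * f) = (τ * u) ^ 2 * f := by
        rw [e2, map_mul, map_mul, F.cycle, hhf]
        rw [show cj h τ = cj h (cj h f) by rw [hhf]] at *
        rw [mul_assoc τ, (hc1.mul_right hc2).eq]
      have hσW : (τ * u) ^ 2 ∈ local2 D d :=
        (sq_local2 hC hτW hu).resolve_left fun h' => hU' (h' ▸ one_mem _)
      have hσ := depth_sq hC hd (ih τ hτ) hτ.1 hu
      have hgoal := descend hC hd ht hdeep hhn K (k + 1) hK K 0 _ (by omega) hσW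
        (depth_zero hC (Subgroup.subset_closure hσW)) hU'
        ((twin_commute_iff hτ hσW.1.1).mp (local2_sq_commute hC hτW hu).1)
        ⟨u, hu, F.not_commute hC, (local2_sq_commute hC hτW hu).2⟩
        ⟨f, hf, by rw [hπ]; exact depth_mul_twin hσ hf⟩
      intro τ' hτ'
      have := hgoal _ (hback τ' hτ')
      rwa [hcjh] at this
  exact htU (hK K le_rfl t (hall K t ⟨ht.1.1, rfl⟩))

/-- The twins of a deep member are deep. -/
theorem twin_deep {τ : G} (hd : d ∈ D) (ht : t ∈ local2 D d) (hdeep : AllDeep D d t)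
    (htU : t ∉ twinGroup D d) (hτ : τ ∈ sameCommutingClass D t) : AllDeep D d τ := by
  intro u hu
  have hτW := local2_twin hC hd ht hτ
  by_cases hut : Commute u t
  · rw [sq_eq_one_of_commute (self hC hu.1.1) (self hC hτ.1) ((twin_commute_iff hτ hu.1.1).mpr hut)]
    exact one_mem _
  obtain ⟨hcu, hct⟩ := local2_sq_commute hC hu ht
  have hne : (u * t) ^ 2 ≠ 1 := fun h' => hut ((commute_iff hC.root hu.1.1 ht.1.1).mpr h')
  have hd' := twin_of_mem hC hd (hdeep u hu) hne
  obtain ⟨g, hg⟩ := exists_frame hC hd'.1 hu.1.1 ht.1.1 hcu.symm hct.symm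
    ((conj_eq_mul_sq (self hC ht.1.1)).trans (by rw [local2_sq_comm hC hu ht]))
  have := twin_deep_aux hC hd'.1 (local2_eq_of_twin hd' ▸ ht) (allDeep_twin hC hd' hdeep)
    (twinGroup_eq_of_twin hd' ▸ htU) hτ hg (local2_eq_of_twin hd' ▸ hu)
  rwa [twinGroup_eq_of_twin hd'] at this

end CfsgLib.RootInv.Structure52
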